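import Cfsg.Agent.PLocal.MnG
import Cfsg.Agent.Transfer.KInf3

/-! Control of transfer for odd primes by the centre and one characteristic subgroup. -/

set_option autoImplicit false

namespace CF.FF

open Cfsg Subgroup CF.Loc Function Equiv
open CF.PLocal (maxAb thompson_le le_thompson)
open scoped commutatorElement MatrixGroups

universe u

variable {G : Type u} [Group G] {p : ℕ} {H P S T M M' A B C D K L N V W X Y Z : Subgroup G} {g : G}

theorem NatOn.eq_bot {F : Type} [Field F] {ρ : G → SL(2, F)} {ψ : G → Fin 2 → F} (n : NatOn F V L A ρ ψ)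
    (hi : ∀ g ∈ L, ρ g = 1 → g = 1) (h1 : Y ≤ A) (h2 : L ≤ 𝐍(Y)) : Y = ⊥ := eq_bot_iff.2 fun y hy => by
  obtain ⟨w, hw, e⟩ := n.ρsurj (wT F)
  obtain ⟨t, a⟩ := n.up y (h1 hy)
  obtain ⟨s, b⟩ := n.up _ (h1 (conj_mem_of_mem_normalizer (h2 hw) hy))
  rw [n.ρconj hw (n.le (h1 hy)), e, a, wT_conj] at b
  have : t = 0 := by simpa [CF.PLocal.upT, CF.PLocal.loT] using congrArg (fun m : SL(2, F) => m 1 0) b
  exact hi y (n.le (h1 hy)) (by rw [a, this, CF.PLocal.upT_zero])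

theorem Sec.quad {F : Type} [Field F] {ρ : G → SL(2, F)} {ψ : G → Fin 2 → F} (s : Sec F Y Z L A ρ ψ) : ⁅⁅Y, A⁆, A⁆ ≤ Z :=
  have l : LSec F ⊤ Y Z L ρ ψ := ⟨s.norm, s.le₀, s.ρmul, s.ψmul, fun m => ⟨fun _ => s.ρsurj m, fun _ => trivial⟩, s.ψsurj, s.ker, s.equiv⟩
  l.ls.quad (s.le.trans l.le_slA) fun a ha => l.rho_eq (s.le ha) ▸ s.up a ha

/-- vanishing of the first cohomology in the presence of a central element inverting the commutators -/
theorem inf_le_of_inv {R : Subgroup G} [X.Normal] [K.Normal] (hR : 𝐑[3](R) = R) (l : K ≤ X) (ab : ⁅X, X⁆ ≤ K) (ex : ∀ x ∈ X, x ^ 3 ∈ K)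
    (d : ⁅X ⊓ D, R⁆ ≤ K) {z : G} (hz : z ∈ R) (c : ∀ k ∈ R, ∀ x ∈ X, ⁅(k * z)⁻¹ * (z * k), x⁆ ∈ K)
    (i : ∀ y ∈ ⁅R, X⁆, z * y * z⁻¹ * y ∈ D) : ⁅R, X⁆ ⊓ D ≤ K := fun y hy => by
  have nX : ∀ H : Subgroup G, H ≤ 𝐍(X) := fun H => le_normalizer_of_normal' _ _
  have nK : ∀ H : Subgroup G, H ≤ 𝐍(K) := fun H => le_normalizer_of_normal' _ _
  obtain ⟨E, _, φ, α, m⟩ := exists_mod (nX ⊤) (nK ⊤) le_top ab
  have t := mem_top (G := G)
  have cX : ∀ g, ∀ x ∈ X, ⁅g, x⁆ ∈ X := fun g x hx => cm_mem (nX ⊤ (t g)) hx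
  have e1 : ∀ x ∈ X, φ (z * x * z⁻¹ * x) = α z (φ x) + φ x := fun x hx => by rw [m.mul _ (m.mem (t z) hx) _ hx, m.conj z (t z) x hx]
  have e2 : ∀ k ∈ R, ∀ x ∈ X, φ ⁅k, z * x * z⁻¹ * x⁆ = φ (z * ⁅k, x⁆ * z⁻¹ * ⁅k, x⁆) := fun k hk x hx => by
    have w := mul_mem (m.mem (t z) hx) hx
    rw [m.comm (t k) w, e1 x hx, e1 _ (cX k x hx), m.comm (t k) hx, map_add, map_sub, ← m.αmul (t k) (t z) hx, ← m.αmul (t z) (t k) hx,
      m.congr (t _) (t _) hx (c k hk x hx)]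
    abel
  have l1 : X ⊓ D ⊔ K ≤ X := sup_le inf_le_left l
  have e3 : ⁅X ⊓ secCent R (X ⊓ D ⊔ K), 𝐑[3](R)⁆ ≤ K := commutator_pResidualOf_le (p := 3) (U := X ⊓ D ⊔ K)
    (fun u hu => ⟨1, ex u (l1 hu)⟩) ((commutator_mono inf_le_right le_rfl).trans ((commutator_comm _ _).le.trans
      (commutator_secCent_le _ _))) (commutator_sup_left_le (nK _) (nK _) d (commutator_le_left _ _)) (nK _) (nK _)
  rw [hR] at e3
  let N : Subgroup G :=
    { carrier := {x | x ∈ X ∧ α z (φ x) + φ x = 0}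
      one_mem' := ⟨one_mem _, by rw [m.one, map_zero, add_zero]⟩
      mul_mem' := fun {a b} ha hb => ⟨mul_mem ha.1 hb.1, by
        rw [m.mul a ha.1 b hb.1, map_add, add_add_add_comm, ha.2, hb.2, add_zero]⟩
      inv_mem' := fun {a} ha => ⟨inv_mem ha.1, by rw [m.inv ha.1, map_neg, ← neg_add, ha.2, neg_zero]⟩ }
  have e4 : ⁅R, X⁆ ≤ N := commutator_le.2 fun k hk x hx => ⟨cX k x hx, by
    have w := mul_mem (m.mem (t z) hx) hx
    rw [← e1 _ (cX k x hx), ← e2 k hk x hx, m.ker _ (cX _ _ w)]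
    refine (commutator_comm _ _).le.trans e3 (commutator_mem_commutator hk ⟨w, le_normalizer_of_commutator_le l1
      (ab.trans le_sup_right) w, fun r hr => ?_⟩)
    have a := cX r x hx
    have a1 := mul_mem (m.mem (t z) a) a
    have := (m.ker _ (mul_mem (inv_mem a1) (cX r _ w))).1 (by rw [m.mul _ (inv_mem a1) _ (cX r _ w), m.inv a1, e2 r hr x hx, neg_add_cancel])
    simpa only [mul_inv_cancel_left] using mul_mem (mem_sup_left (S := X ⊓ D) ⟨a1, i _ (commutator_mem_commutator hr hx)⟩)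
      (mem_sup_right this)⟩
  obtain ⟨y1, y2⟩ := e4 hy.1
  rw [m.fix (t z) y1 ((commutator_comm _ _).le.trans d (commutator_mem_commutator hz ⟨y1, hy.2⟩))] at y2
  have := (m.ker _ (pow_mem y1 3)).2 (ex y y1)
  rw [m.pow y1, three'_nsmul, y2, zero_add] at this
  exact (m.ker y y1).1 this

variable [Finite G] [hp : Fact p.Prime]

/-- The rank one subgroup of a `p`-minimal group. -/
theorem PM.rk (m : PM p P T (P ⊓ M) V) (nB : P ⊓ 𝐍(𝐁[p](T)) ≤ M) : ∃ L ≤ P, 𝐎[p](P) ≤ 𝐍(L) ∧ ¬ L ≤ M ∧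
    PU p L 𝐁[p](T) (L ⊓ M) ∧ IsCharP p L ∧ 𝐎[p](𝐑[p](L)) ≤ 𝐎[p](P) := by
  have s := m.str
  have f := s.fam
  have nV := m.norm
  obtain ⟨A, hA, A', hA', o⟩ := m.exists_off
  obtain ⟨A₀, L₀, t⟩ := s.exists_top o
  obtain ⟨F, _, _, ρ, ψ, n, hi⟩ := t.nat
  have iB := IsSyl.isB m.syl
  have BT := baumann_le p T
  have OT := m.syl.pCoreOf_le
  have TP := m.syl.le
  have eB := m.bar_B
  have pA := isElemAb_isPGroup t.off.ea
  have AB : A₀ ≤ bar V 𝐁[p](T) := eB ▸ le_offJ t.off t.le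
  obtain ⟨B₀, hB₀⟩ : ∃ B₀, B₀ = bar V 𝐁[p](T) ⊓ 𝐂(L₀) := ⟨_, rfl⟩
  have b1 : B₀ ≤ bar V 𝐁[p](T) := hB₀ ▸ inf_le_left
  have b2 : L₀ ≤ 𝐂(B₀) := le_centralizer_comm.1 (hB₀ ▸ inf_le_right)
  have b3 : B₀ ⊔ A₀ = bar V 𝐁[p](T) := le_antisymm (sup_le b1 AB) (eB.le.trans (sSup_le fun C hC => by
    by_cases e : A₀ = C
    · exact e ▸ le_sup_right
    · exact le_sup_of_le_left (hB₀ ▸ le_inf (eB ▸ le_offJ hC.2 hC.1) (t.cent C hC.1 hC.2 e).2)))
  have b4 := b2.trans (centralizer_le_normalizer _)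
  have pB : IsPGroup p (bar V 𝐁[p](T)) := s.syl.isPGroup.to_le (bar_mono BT)
  have bM : bar V 𝐁[p](T) ≤ bar V (P ⊓ M) := (bar_mono BT).trans s.um.le
  have k0 : B₀ ⊔ L₀ ≤ bar V P := sup_le (b1.trans (bar_mono (BT.trans TP))) t.le'
  have s1 : IsSyl p (bar V 𝐁[p](T)) (B₀ ⊔ L₀) := ⟨b3 ▸ sup_le_sup_left n.le _, pB, fun Q hQ a b => by
    have := sup_inf_of_le_normalizer_left b4 (b1.trans a)
    rw [inf_eq_right.2 b, IsSyl.eq_of_le (n.isSyl hi pA) (hQ.to_le inf_le_right) (le_inf n.le (AB.trans a)) inf_le_left, b3] at this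
    exact this⟩
  obtain ⟨S, hS⟩ : ∃ S, S = 𝐁[p](T) ⊔ 𝐎[p](P) := ⟨_, rfl⟩
  have ST : S ≤ T := hS ▸ sup_le BT OT
  have BS : 𝐁[p](T) ≤ S := hS ▸ le_sup_left
  have OS : 𝐎[p](P) ≤ S := hS ▸ le_sup_right
  have pS := m.syl.isPGroup.to_le ST
  have eS : bar V S = bar V 𝐁[p](T) := hS ▸ bar_sup_of_le_centralizer ((BT.trans TP).trans nV) m.core_cent
  have SK : S ≤ P ⊓ unbar V (B₀ ⊔ L₀) := le_inf (ST.trans TP) ((bar_le_iff ((ST.trans TP).trans nV)).1 (eS ▸ s1.le))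
  have nM : ∀ K ≤ P, bar V K ≤ bar V (P ⊓ M) ↔ K ≤ M := fun K hK => ⟨fun e => (inf_le_of_bar hK nV inf_le_left e).trans
    ((sup_le le_rfl m.cent_le).trans inf_le_right), fun e => bar_mono (le_inf hK e)⟩
  have s2 : IsSyl p S (P ⊓ unbar V (B₀ ⊔ L₀)) := isSyl_of_bar (inf_le_left.trans nV) SK pS (by rwa [eS, bar_unbar k0])
    ((m.syl.inf_of_le_normalizer inf_le_left (le_normalizer_inf le_normalizer (le_normalizer_centralizer nV))).mono
      (le_inf (le_inf (inf_le_left.trans TP) ((inf_le_right.trans inf_le_right).trans (centralizer_le_unbar _)))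
        (inf_le_right.trans inf_le_right)) (inf_le_inf_right _ inf_le_left))
    (((inf_le_inf_left _ inf_le_right).trans m.inf_cent).trans OS)
  obtain ⟨L, l1, l2⟩ := exists_uMax (ST.trans (m.um.le.trans inf_le_right)) SK fun e => t.nle (le_sup_right.trans
    ((bar_unbar k0).ge.trans ((nM _ inf_le_left).2 e)))
  have LP := l1.trans inf_le_left
  have nL := LP.trans nV
  have SL := l2.le.trans inf_le_left
  have s3 := s2.mono SL l1
  have LM : ¬ L ≤ M := fun e => l2.lt.not_ge (le_inf le_rfl e)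
  have l3 : bar V L ≤ B₀ ⊔ L₀ := (bar_mono l1).trans (bar_unbar k0).le
  have l4 : bar V 𝐁[p](T) ≤ bar V L := bar_mono (BS.trans SL)
  have l5 : L₀ ≤ bar V L := by
    have := sup_inf_of_le_normalizer_left b4 (b1.trans l4)
    rw [inf_eq_right.2 l3] at this
    obtain ⟨g, hg, g0⟩ := SetLike.not_le_iff_exists.1 fun e : L₀ ⊓ bar V L ≤ bar V (P ⊓ M) =>
      LM ((nM L LP).1 (this.le.trans (sup_le (b1.trans bM) e)))
    refine (n.sup_cj hi hg.1 fun e => g0 (s.norm_offJ t.off t.le ⟨t.le' hg.1, cj_eq_self_iff.1 ?_⟩)).ge.trans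
      (sup_le (AB.trans l4) (cj_le_of_mem hg.2 (AB.trans l4)))
    rw [← eB, ← b3, cj_sup, cj_eq_self (b4 hg.1), cj_eq_self (n.mem_norm hi hg.1 e)]
  have nN : L ≤ 𝐍(unbar V B₀) := le_normalizer_unbar nL (l3.trans (sup_le le_normalizer b4))
  have n1 : S ⊓ unbar V B₀ ≤ 𝐎[p](L) := inf_le_core s3 l2 nN fun e => LM ((nM L LP).1 (by
    rw [← s3.pResidualOf_sup, bar_sup ((pResidualOf_le _ _).trans nL) (SL.trans nL), eS]
    exact sup_le (((bar_le_iff ((pResidualOf_le _ _).trans nL)).2 e).trans (b1.trans bM)) bM))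
  have ne : ¬ S ≤ 𝐎[p](L) := fun e => LM ((le_inf LP ((le_normalizer_pCoreOf p L).trans (iB.norm_le (isPGroup_pCoreOf p L)
    (BS.trans e) ((pCoreOf_le _ _).trans LP)))).trans nB)
  have pu : PU p L S (L ⊓ M) := by
    refine ⟨s3, l2, ne, (le_inf (commutator_le_self S) ?_).trans n1, ?_⟩
    · rw [← bar_le_iff ((commutator_le_self S).trans (SL.trans nL)), bar_commutator (SL.trans nL) (SL.trans nL), eS, ← b3]
      have a1 := n.le.trans b4
      exact commutator_sup_left_le le_normalizer a1 (commutator_le_left_of_le_normalizer (sup_le le_normalizer a1))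
        (commutator_sup_right_le le_normalizer a1 (comm_le_of_cent (n.le.trans b2)) (comm_le_of_cent (n.ab hi)))
    by_cases h4 : 4 ≤ Nat.card F
    · left
      have r := pResidualOf_le p L
      have a1 : L₀ ≤ bar V 𝐑[p](L) := by
        rw [bar_res nL]
        exact le_pResidualOf_of_perfect (n.perfect hi h4) l5
      have a2 : L ⊓ unbar V B₀ ≤ 𝐑[p](L) ⊔ 𝐎[p](L) :=
        (s3.inf_of_le_normalizer inf_le_left (le_normalizer_inf le_normalizer nN)).pResidualOf_sup.ge.trans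
          (sup_le_sup (pResidualOf_mono inf_le_left) ((inf_le_inf_left _ inf_le_right).trans n1))
      refine (inf_le_of_bar (Y := 𝐑[p](L) ⊔ (L ⊓ unbar V B₀)) SL nL (sup_le r inf_le_left) ?_).trans
        (sup_le (sup_le le_sup_left a2) ((inf_le_inf_left _ (centralizer_le_unbar _)).trans a2))
      rw [bar_sup (r.trans nL) (inf_le_left.trans nL), bar_unbar (b1.trans l4), eS, ← b3, sup_comm]
      exact sup_le_sup_right (n.le.trans a1) _
    · right
      obtain ⟨k, k1, hk⟩ := n.card_eq hi pA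
      have a1 : Nat.card F = p := by
        have := hp.out.two_le
        rcases k1.eq_or_lt with rfl | k2
        · rw [hk, pow_one]
        · exact absurd (hk ▸ (Nat.pow_le_pow_left this 2).trans (Nat.pow_le_pow_right (by omega) k2)) h4
      have a2 := relIndex_dvd_of_le_left S n1
      rw [inf_comm, inf_relIndex_right, relIndex_unbar (SL.trans nL), eS, ← b3, relIndex_sup_of_normalizes (.inr (n.le.trans b4))] at a2
      exact ((Nat.dvd_prime hp.out).1 ((a2.trans (relIndex_dvd_card _ _)).trans ((n.card_A' hi).trans a1).dvd)).resolve_left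
        (mt relIndex_eq_one.1 ne)
  have OL : 𝐎[p](P) ≤ L := OS.trans SL
  have ch := m.ch.of_pCoreOf_le OL LP
  obtain ⟨C, hC, c0⟩ : ∃ C ∈ maxAb p T, ¬ C ≤ 𝐎[p](L) := by_contra fun c => by
    push Not at c
    exact LM ((le_inf LP (CF.PLocal.thompson_eq_of_le (CF.PLocal.thompson_le_iff.2 c) (s3.pCoreOf_le.trans ST) ▸
      (le_normalizer_pCoreOf p L).trans (norm_thompson p _))).trans (m.nj.trans inf_le_right))
  have CS : C ≤ S := ((le_thompson hC).trans (thompson_le_baumann p T)).trans BS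
  have ea := isElemAb_omegaOneCenter p 𝐎[p](L)
  obtain ⟨e, F', _, _, ρ', ψ', n', m'⟩ := pu.nat (U_ab p L) (isElemAb_isPGroup ea) (norm_omega p L) (core_cent_U p L) (by
      rw [omega_inf_cent s3 ch]
      exact fun e => LM ((le_inf LP (le_centralizer_comm.1 ((le_omegaOneCenter (isElemAb_omegaOneCenter p T)
        (((m.ch.omegaOneCenter_le m.syl).trans (omegaOneCenter_le _ _)).trans OS) ((omegaOneCenter_le_centralizer p T).trans
          (centralizer_anti ST))).trans e))).trans (m.cz.trans inf_le_right))) CS c0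
    ((Nat.mul_le_mul_right _ (card_le_card_of_le (inf_le_inf_left _ (core_cent_U p L)))).trans
      (maxAb_off hC ((U_le_core p L).trans (s3.pCoreOf_le.trans ST)) ea))
  have sy := PW.baumann ⟨s3, l2, ea, le_inf (U_le_core p L) (omegaOneCenter_le_centralizer _ _), n', m'⟩
    (CF.PLocal.mem_maxAb_of_le hC CS ST) e
  rw [baumann_eq BS ST] at sy
  have pu' := pu.sub (le_antisymm (sup_le BS s3.pCoreOf_le) (hS.le.trans (sup_le_sup_left (pCoreOf_le_pCoreOf_of_le LP OL) _))) sy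
  have l6 := ncl_le_of_le (BS.trans SL)
  have nM' : ¬ ncl 𝐁[p](T) L ≤ M := fun e => pu'.um.lt.not_ge (le_inf le_rfl e)
  refine ⟨_, l6.trans LP, OL.trans (le_normalizer_ncl _ _), nM', pu', ch.of_normal l6 (le_normalizer_ncl _ _), ?_⟩
  have r := (pResidualOf_le p _).trans l6
  have y1 := (pCoreOf_le p _).trans r
  have y2 := (le_normalizer_ncl 𝐁[p](T) L).trans ((normalizer_le_normalizer_pResidualOf p _).trans
    (normalizer_le_normalizer_pCoreOf p _))
  have y3 := isPGroup_pCoreOf p 𝐑[p](ncl 𝐁[p](T) L)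
  refine (le_inf ((le_pCoreOf y3 y1 y2).trans (s3.pCoreOf_le.trans ST)) ?_).trans m.inf_cent
  have y4 := l5.trans (bar_le_normalizer_bar nL y2)
  refine (bar_eq_bot_iff (y1.trans nL)).1 (n.eq_bot hi ((le_pCoreOf ((isPGroup_subgroupOf y3).map _) ?_ y4).trans
    (n.isSyl hi pA).pCoreOf_le) y4)
  refine (bar_mono ((pCoreOf_le p _).trans (pResidualOf_mono l6))).trans ?_
  rw [bar_res nL]
  exact (pResidualOf_mono (l3.trans (sup_comm _ _).le)).trans (pResidualOf_sup_le (pB.to_le b1)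
    ((le_centralizer_comm.1 b2).trans (centralizer_le_normalizer _)))

open CF.Transfer hiding le_normalizer_of_commutator_le in
/-- a rank one subgroup with at most two noncentral chief factors gives quadratic elements on all chief factors -/
theorem PM.quad (m : PM p ⊤ T M V) (hL : 𝐎[p](⊤) ≤ 𝐍(L)) (c : ¬ L ≤ M) (k : Pan p L 𝐁[p](T) M')
    (b : Blk p L 𝐁[p](T) ∨ Cub p L 𝐁[p](T)) (o : 𝐎[p](𝐑[p](L)) ≤ 𝐎[p](⊤)) (h : IsChiefFactor X K) (hX : X ≤ 𝐎[p](⊤)) :
    ∃ u ∈ T, u ∉ 𝐎[p](⊤) ∧ ⁅⁅X, zpowers u⁆, zpowers u⁆ ≤ K := by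
  have := h.2.1
  have := h.2.2.1
  have nX : ∀ H : Subgroup G, H ≤ 𝐍(X) := fun H => le_normalizer_of_normal' _ _
  have nK : ∀ H : Subgroup G, H ≤ 𝐍(K) := fun H => le_normalizer_of_normal' _ _
  have : V.Normal := normal_of_top_le_normalizer m.norm
  have : 𝐎[p]((⊤ : Subgroup G)).Normal := normal_of_top_le_normalizer (le_normalizer_pCoreOf p ⊤)
  have pQ := isPGroup_pCoreOf p (⊤ : Subgroup G)
  have pX := pQ.to_le hX
  have pT := m.syl.isPGroup
  have ab := chief_commutator_self_le h pX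
  rcases chief_dichotomy h V with a | a
  swap
  · obtain ⟨A, hA, a0⟩ := m.exists_max
    have cV := isElemAb_le_centralizer m.ea
    obtain ⟨B, b1, b2, b3, -⟩ := exists_best_quad cV (isElemAb_isPGroup m.ea) (pT.to_le hA.1) (le_normalizer_of_normal' _ _)
      (comm_le_of_cent (isElemAb_le_centralizer hA.2.1)) a0 (maxAb_off hA (m.le_core.trans m.syl.pCoreOf_le) m.ea)
    obtain ⟨u, hu, u0⟩ := SetLike.not_le_iff_exists.1 b2
    refine ⟨u, hA.1 (b1 hu), fun e => u0 (m.core_cent e), (iterC_two _ _).ge.trans ((iterC_mono a le_rfl 2).trans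
      ((iterC_sup_le inf_le_left h.1.le ab (nX _) (nK _) 2).trans (sup_le ?_ le_rfl)))⟩
    exact (iterC_two _ _).le.trans (comm_le_of_cent ((commutator_mono inf_le_right (zpowers_le.2 hu)).trans
      (b3.trans (centralizer_anti (zpowers_le.2 hu)))))
  have BT := baumann_le p T
  have nB := le_normalizer.trans (norm_baumann p T)
  have RL := pResidualOf_le p L
  have top : T ⊔ 𝐑[p](L) = ⊤ := m.um.eq_of_not_le le_sup_left le_top fun e => c (k.le_of_res (le_sup_right.trans e)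
    (BT.trans m.um.le))
  obtain ⟨F, _, _, ρ, ψ, n, -⟩ := k.nat
  have nU : L ≤ 𝐍(V ⊓ 𝐕[p](L)) := le_normalizer_inf (le_normalizer_of_normal' _ _) (norm_V p L)
  have w : ⁅𝐕[p](L), 𝐑[p](L)⁆ ≤ V := by
    rcases n.sec.irred (le_normalizer_sup nU n.sec.norm₀) le_sup_right (sup_le inf_le_right inf_le_left) with e | e
    · refine (c ((le_inf le_top (le_centralizer_comm.1 ((le_inf (m.eq ▸ m.ch.omegaOneCenter_le m.syl) ((le_inf ((omega_le_J p T).trans
        (thompson_le_baumann p T)) ((omegaOneCenter_le_centralizer p T).trans (centralizer_anti BT))).trans k.zc_le)).trans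
          ((le_sup_left.trans e.le).trans inf_le_right)))).trans m.cz)).elim
    · exact (commutator_mono e.ge le_rfl).trans ((comm_sup_cent_le (inf_le_right.trans (centralizer_anti RL))
        (inf_le_left.trans ((V_ab p L).trans (centralizer_anti inf_le_right)))).trans
          ((commutator_mono inf_le_left le_rfl).trans (commutator_le_left _ _)))
  have d1 : ∀ D, ⁅D, 𝐑[p](L)⁆ ≤ 𝐕[p](L) → ⁅X ⊓ D, 𝐑[p](L)⁆ ≤ K := fun D d => pResidualOf_pResidualOf p L ▸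
    commutator_pResidualOf_le (U := X ⊓ 𝐕[p](L)) (exists_pow_mem_of_isPGroup (pX.to_le inf_le_left) _)
      (le_inf ((commutator_mono inf_le_left le_rfl).trans (commutator_le_left _ _)) ((commutator_mono inf_le_right le_rfl).trans d))
      ((le_inf ((commutator_mono inf_le_left le_rfl).trans (commutator_le_left _ _))
        ((commutator_mono inf_le_right le_rfl).trans w)).trans a) (nK _) (nK _)
  have y0 : ⁅X, 𝐑[p](L)⁆ ≤ X := commutator_le_left _ _
  have nY : L ≤ 𝐍(⁅X, 𝐑[p](L)⁆) := le_normalizer_commutator (nX _) (le_normalizer_pResidualOf p L)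
  have y1 : ⁅X, 𝐑[p](L)⁆ ≤ 𝐎[p](L) := le_pCoreOf (pX.to_le y0) ((commutator_mono le_rfl RL).trans
    (commutator_le_right_of_le_normalizer (hX.trans hL))) nY
  have y2 : ∀ Y ≤ ⁅X, 𝐑[p](L)⁆, ⁅Y, 𝐁[p](T)⁆ ≤ ⁅X, 𝐑[p](L)⁆ := fun Y l => (commutator_mono l le_rfl).trans
    (commutator_le_left_of_le_normalizer (k.syl.le.trans nY))
  have key : ⁅⁅⁅X, 𝐑[p](L)⁆, 𝐁[p](T)⁆, 𝐁[p](T)⁆ ≤ K := by
    rcases b with b | ⟨rfl, ker, ⟨D, -, d2, d3, F', _, _, σ', χ', s'⟩, -⟩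
    · exact (y2 _ (y2 _ le_rfl)).trans ((commutator_commutator_pResidualOf pX (nX L)).ge.trans
        ((commutator_mono (le_inf y0 y1) le_rfl).trans (d1 _ b.res)))
    obtain ⟨σ, χ, s⟩ := s'.exists_field k.syl k.um d3 (n.sec.card_F k.syl k.um (comm_le_of_cent' (core_le_cent 3 L))).symm
    obtain ⟨-, kr⟩ := k.lSec ker n k.W_le le_rfl
    have rg : ∀ {f : L →* SL(2, F)}, (∀ m, ∃ g : L, f g = m) → f.range = ⊤ := fun e => MonoidHom.range_eq_top.2 e
    have kr2 : ∀ g ∈ L, σ g = 1 ↔ g ∈ 𝐎[3](L) := fun x hk => (SetLike.ext_iff.1 (ker_eq_core s.hom (rg fun m =>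
      let ⟨g, hg, e⟩ := s.ρsurj m; ⟨⟨g, hg⟩, e⟩) (equiv_of_ker n.sec.hom (rg fun m => let ⟨g, hg, e⟩ := n.ρsurj m; ⟨⟨g, hg⟩, e⟩)
        (Subgroup.ext fun g => (kr g g.2).trans mem_pCore_iff.symm)) fun g hg' => (s.ρ_eq_one_iff g.2).2 fun v hv =>
          d3 (commutator_mem_commutator (mem_pCore_iff.1 hg') hv)) ⟨x, hk⟩).trans mem_pCore_iff
    obtain ⟨z, hz, ez⟩ : ∃ z ∈ 𝐑[3](L), σ z = -1 := by
      obtain ⟨z, hz, e⟩ := s.ρsurj (-1)
      obtain ⟨k, hk⟩ := exists_pow_mem_pResidualOf (p := 3) hz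
      refine ⟨_, hk, (map_pow s.hom ⟨z, hz⟩ (3 ^ k)).trans ?_⟩
      rw [show s.hom ⟨z, hz⟩ = -1 from e, (Odd.pow (by decide)).neg_one_pow]
    refine (le_inf ((y2 _ (y2 _ le_rfl)).trans (commutator_comm _ _).le) ((commutator_mono (commutator_mono y1 le_rfl) le_rfl).trans
      s.quad)).trans (inf_le_of_inv (pResidualOf_pResidualOf 3 L) h.1.le ab (fun x => chief_pow_mem h pX) (d1 D d2) hz
        (fun x hx y hy => ?_) fun y hy => ?_)
    · have a1 := mul_mem hx hz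
      have a2 := mul_mem hz hx
      have a3 := mul_mem (inv_mem a1) a2
      refine (commutator_comm _ _).le.trans (chief_commutator_le h pX pQ) (commutator_mem_commutator (o ((core_res 3 L).ge
        ⟨a3, (kr2 _ (RL a3)).1 ?_⟩)) hy)
      rw [s.ρmul _ (RL (inv_mem a1)) _ (RL a2), s.ρinv (RL a1), s.ρmul x (RL hx) z (RL hz), s.ρmul z (RL hz) x (RL hx), ez]
      simp
    · have a1 := y1 ((commutator_comm _ _).le hy)
      have a2 := s.conj_mem (RL hz) a1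
      rw [← s.ker _ (mul_mem a2 a1), s.ψmul _ a2 _ a1, s.equiv z (RL hz) y a1, ez, SL2_neg_smul, neg_add_cancel]
  obtain ⟨u, hu, u0⟩ := SetLike.not_le_iff_exists.1 fun e : 𝐁[p](T) ≤ 𝐎[p](⊤) => k.ne ((le_inf e k.syl.le).trans
    (le_pCoreOf (pQ.to_le inf_le_left) inf_le_right (le_normalizer_inf (le_normalizer_of_normal' _ _) le_normalizer)))
  refine ⟨u, BT hu, u0, (commutator_mono (commutator_mono le_rfl (zpowers_le.2 hu)) (zpowers_le.2 hu)).trans ?_⟩
  have s1 : ∀ Y ≤ X, ∀ Z, K ≤ Z → Z ≤ X → (Y ≤ X ⊓ secCent 𝐁[p](T) Z ↔ ⁅Y, 𝐁[p](T)⁆ ≤ Z) := fun Y l Z l1 l2 => by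
    rw [le_inf_iff, le_secCent_iff, commutator_comm]
    exact ⟨fun e => e.2.2, fun e => ⟨l, l.trans (le_normalizer_of_commutator_le l2 (ab.trans l1)), e⟩⟩
  have k1 := (s1 K h.1.le K le_rfl h.1.le).2 (commutator_le_left _ _)
  have k2 := (s1 _ y0 _ k1 inf_le_left).2 ((s1 _ ((y2 _ le_rfl).trans y0) K le_rfl h.1.le).2 key)
  rcases h.2.2.2 (X ⊓ secCent 𝐁[p](T) (X ⊓ secCent 𝐁[p](T) K)) (normal_of_top_le_normalizer (top.ge.trans (sup_le
    (le_normalizer_inf (nX _) (le_normalizer_secCent nB (le_normalizer_inf (nX _) (le_normalizer_secCent nB (nK _)))))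
    (le_normalizer_of_commutator_le inf_le_left k2)))) ((s1 K h.1.le _ k1 inf_le_left).2 ((commutator_le_left _ _).trans k1))
    inf_le_left with e | e
  · exact (commutator_mono (commutator_le_left _ _) BT).trans (chief_commutator_le_of_sup h pT (hX.trans m.syl.pCoreOf_le)
      (k2.trans e.le) top)
  · exact (s1 _ (commutator_le_left _ _) K le_rfl h.1.le).1 ((s1 X le_rfl _ k1 inf_le_left).1 e.ge)

section Family

variable {S : Type u} [Group S]

theorem pair_pull' {G₁ G₂ : Type u} [Group G₁] [Group G₂] [Finite G₁] [Finite G₂] {τ₁ : S →* G₁} {τ₂ : S →* G₂}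
    (h₁ : Injective τ₁) (h₂ : Injective τ₂) {P₁ M₁ : Subgroup G₁} {P₂ M₂ : Subgroup G₂} (r : Red p (⊤ : Subgroup S))
    (k₁ : Pan p P₁ (map τ₁ ⊤) M₁) (k₂ : Pan p P₂ (map τ₂ ⊤) M₂) (b₁ : ¬ (Blk p P₁ (map τ₁ ⊤) ∨ Cub p P₁ (map τ₁ ⊤)))
    (b₂ : ¬ Blk p P₂ (map τ₂ ⊤)) {X : Subgroup S} (e : X.map τ₂ = 𝐕[p](P₂)) :
    X.map τ₁ ≤ 𝐎[p](P₁) ∧ P₁ ≤ 𝐍(X.map τ₁ ⊔ 𝐕[p](P₁)) := by
  obtain ⟨H, _, _, f₁, f₂, i₁, i₂, c⟩ := exists_amalgam h₁ h₂
  have e1 : ∀ Y : Subgroup S, (Y.map τ₂).map f₂ = (Y.map τ₁).map f₁ := fun Y => by rw [map_map, map_map, c]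
  have k := k₂.map i₂
  rw [e1] at k
  obtain ⟨a, b⟩ := ((k₁.map i₁).pair ((r.map h₁).map i₁) k).resolve_left fun b =>
    b₁ (b.imp (Blk.of_map k₁.syl.isPGroup i₁) (Cub.of_map k₁.syl i₁))
  rw [V_map i₂, ← e, e1] at a b
  rw [core_map i₁, map_le_map_iff_of_injective i₁] at a
  rw [V_map i₁, ← Subgroup.map_sup, norm_map_iff i₁, ← e1] at b
  exact ⟨a, b.resolve_right (mt (Blk.of_map k₂.syl.isPGroup i₂) b₂)⟩

variable [Finite S]

theorem exists_Y' (r : Red p (⊤ : Subgroup S)) : ∃ Y : Subgroup S, Y.Characteristic ∧ 𝐙[(⊤ : Subgroup S)] ≤ Y ∧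
    ∀ (G : Type u) [Group G] [Finite G] (τ : S →* G) (P M : Subgroup G), Injective τ → Pan p P (map τ ⊤) M →
      (Blk p P (map τ ⊤) ∨ Cub p P (map τ ⊤)) ∨ P ≤ 𝐍(Y.map τ) := by
  let s : Set (Subgroup S) := {X | ∃ (G : Type u) (_ : Group G) (_ : Finite G) (τ : S →* G) (P M : Subgroup G), Injective τ ∧
    Pan p P (map τ ⊤) M ∧ ¬ (Blk p P (map τ ⊤) ∨ Cub p P (map τ ⊤)) ∧ X.map τ = 𝐕[p](P)}
  have c1 : (sSup s).Characteristic := characteristic_iff_map_le.2 fun φ => by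
    rw [CF.PLocal.map_sSup_eq]
    refine sSup_le_sSup ?_
    rintro _ ⟨X, ⟨G, _, _, τ, P, M, a, b, c, d⟩, rfl⟩
    have e : map (τ.comp φ.symm.toMonoidHom) ⊤ = map τ ⊤ := by rw [← map_map, map_top_of_surjective _ φ.symm.surjective]
    exact ⟨G, inferInstance, inferInstance, τ.comp φ.symm.toMonoidHom, P, M, a.comp φ.symm.injective, e ▸ b, e ▸ c, by
      rw [← d, map_map]; congr 1; ext; simp⟩
  refine ⟨𝐂(sSup s), inferInstance, inf_le_right.trans (centralizer_anti le_top), fun G _ _ τ P M a b => ?_⟩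
  rw [or_iff_not_imp_left]
  intro c
  have v : 𝐕[p](P) ≤ (sSup s).map τ := by
    have := map_inf_comap b.V_le
    exact this.ge.trans (map_mono (le_sSup ⟨G, inferInstance, inferInstance, τ, P, M, a, b, c, this⟩))
  have n : P ≤ 𝐍((sSup s).map τ) := by
    rw [← sup_of_le_left v, sSup_eq_iSup', Subgroup.map_iSup]
    have : Nonempty s := ⟨⟨_, G, inferInstance, inferInstance, τ, P, M, a, b, c, map_inf_comap b.V_le⟩⟩
    rw [iSup_sup]
    exact le_normalizer_iSup fun ⟨X, G', _, _, τ', P', M', a', b', c', d'⟩ => (pair_pull' a a' r b b' c (mt Or.inl c') d').2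
  rw [← top_inf_eq 𝐂(sSup s), map_inf_cent a, show map τ ⊤ ⊓ 𝐂((sSup s).map τ) = 𝐎[p](P) ⊓ 𝐂((sSup s).map τ) from
    le_antisymm (le_inf ((inf_le_inf_left _ (centralizer_anti v)).trans b.cent_V.le) inf_le_right)
      (inf_le_inf_right _ b.syl.pCoreOf_le)]
  exact le_normalizer_inf (le_normalizer_pCoreOf p P) (le_normalizer_centralizer n)

/-- a characteristic subgroup of a Baumann subgroup that pushes up all rank one groups but the blocks -/
theorem exists_K [Nontrivial S] (hS : IsPGroup p S) (e : 𝐁[p]((⊤ : Subgroup S)) = ⊤) : ∃ Y : Subgroup S, Y ≠ ⊥ ∧ Y.Characteristic ∧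
    ∀ (G : Type u) [Group G] [Finite G] (τ : S →* G) (P M : Subgroup G), Injective τ → PU p P (map τ ⊤) M → IsCharP p P →
      ¬ 𝐙[map τ ⊤] ≤ 𝐂(P) → (Pan p P (map τ ⊤) M ∧ (Blk p P (map τ ⊤) ∨ Cub p P (map τ ⊤))) ∨ P ≤ 𝐍(Y.map τ) := by
  have pS : IsPGroup p (⊤ : Subgroup S) := hS.to_subgroup ⊤
  by_cases h0 : sPhi p (⊤ : Subgroup S) = ⊥
  swap
  · exact ⟨_, h0, char_of fun f a b => by rw [sPhi_map a pS, b], fun G _ _ τ P M a b c d => Or.inr (sPhi_map a pS ▸ b.norm_sPhi c d)⟩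
  obtain ⟨Q, hQ⟩ := exists_mclo p (⊤ : Subgroup S)
  have ea : IsElementaryAbelian p Q := (CF.Solv.map_frattini_eq_bot_iff (hS.to_subgroup Q)).1
    (le_bot_iff.1 ((le_iSup (fun Q : {Q // MCLo p ⊤ Q} => 𝚽(Q.1)) ⟨Q, hQ⟩).trans h0.le))
  have ab := isElemAb_le_centralizer ea
  have m := (hQ.1.iff_max ab).1 hQ.1
  have hJ : 𝐉[p]((⊤ : Subgroup S)) ≤ thompsonSubgroupOf 0 ⊤ := CF.PLocal.thompson_le_iff.2 fun A hA => le_thompson
    ⟨le_top, isElementaryAbelian_iff.2 ⟨isElemAb_le_centralizer hA.2.1, fun x _ => pow_zero x⟩, fun B a b =>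
      (m.2.2 B a b).trans (hA.2.2 Q le_top ea)⟩
  obtain ⟨r, e1⟩ := red_of (p := p) (le_centralizer_comm.1 (e.ge.trans (inf_le_right.trans (centralizer_anti (le_omegaJ (isElemAb_of_le ea
    (ZJ_le_max m)) le_top (inf_le_right.trans (centralizer_anti hJ))))))) (isElemAb_of_le ea hQ.1.1.cd.zc_le) hQ.1 ab
  obtain ⟨Y, y1, y2, y3⟩ := exists_Y' r
  refine ⟨Y, fun e => center_ne_bot pS top_ne_bot (le_bot_iff.1 (e ▸ y2)), y1, fun G _ _ τ P M a b c d => ?_⟩
  have k := b.pan_of_red c d (by rw [CF.PLocal.thompson_map a.injOn, e1])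
  exact (y3 G τ P M a k).imp_left fun h => ⟨k, h⟩

omit [Finite S] in
/-- every chief factor in `O_p` admits a quadratic element -/
def Good (p : ℕ) {G : Type u} [Group G] (T : Subgroup G) : Prop := IsSyl p T ⊤ → IsCharP p (⊤ : Subgroup G) → ∀ M, UMax T M ⊤ →
  ¬ 𝐙[T].Normal → ∀ X K, IsChiefFactor X K → X ≤ 𝐎[p](⊤) → ∃ u ∈ T, u ∉ 𝐎[p](⊤) ∧ ⁅⁅X, zpowers u⁆, zpowers u⁆ ≤ K

theorem exists_good [Nontrivial S] (hS : IsPGroup p S) : ∃ Y : Subgroup S, Y ≠ ⊥ ∧
    ∀ (G : Type u) [Group G] [Finite G] (τ : S →* G), Injective τ → Good p (map τ ⊤) ∨ (Y.map τ).Normal := by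
  have z : ∀ {G : Type u} [Group G] [Finite G] (T : Subgroup G), 𝛀[p](T) ≤ 𝐁[p](T) := fun T =>
    (omega_le_J p T).trans (thompson_le_baumann p T)
  have i := (𝐁[p]((⊤ : Subgroup S))).subtype_injective
  have : Nontrivial 𝐁[p]((⊤ : Subgroup S)) := (nontrivial_iff_ne_bot _).2 fun e =>
    omegaOneCenter_ne_bot (hS.to_subgroup ⊤) top_ne_bot (le_bot_iff.1 (e ▸ z ⊤))
  obtain ⟨Y, y0, y1, y2⟩ := exists_K (hS.to_subgroup 𝐁[p]((⊤ : Subgroup S))) (map_injective i (by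
    rw [← baumann_map i, ← MonoidHom.range_eq_map, range_subtype, baumann_eq le_rfl le_top]))
  refine ⟨_, mt (map_eq_bot_iff_of_injective _ i).1 y0, fun G _ _ τ a => or_iff_not_imp_right.2 fun n hT c M u nZ X K h hX => ?_⟩
  have a' : Injective (τ.comp (𝐁[p]((⊤ : Subgroup S))).subtype) := a.comp i
  have e : map (τ.comp (𝐁[p]((⊤ : Subgroup S))).subtype) ⊤ = 𝐁[p](map τ ⊤) := by
    rw [← map_map, ← MonoidHom.range_eq_map, range_subtype, baumann_map a]
  rw [map_map] at n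
  specialize y2 G (τ.comp (𝐁[p]((⊤ : Subgroup S))).subtype)
  generalize τ.comp (𝐁[p]((⊤ : Subgroup S))).subtype = σ at a' e n y2
  generalize map τ ⊤ = T at *
  have n1 : 𝐍(𝐁[p](T)) ≤ 𝐍(Y.map σ) := fun g hg => cj_eq_self_iff.1 (by
    let ε := (MonoidHom.ofInjective a').trans (MulEquiv.subgroupCongr ((MonoidHom.range_eq_map σ).trans e))
    let φ := ε.trans ((normalizerMonoidHom _ ⟨g, hg⟩).trans ε.symm)
    conv_rhs => rw [← characteristic_iff_map_eq.1 y1 φ]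
    rw [map_map, map_map]
    exact congrArg (map · Y) (MonoidHom.ext fun x => (congrArg Subtype.val (ε.apply_symm_apply (normalizerMonoidHom _ ⟨g, hg⟩ (ε x)))).symm))
  have k : ∀ Y : Subgroup G, T ≤ 𝐍(Y) → ¬ Y.Normal → 𝐍(Y) ≤ M := fun Y a b =>
    u.le_of_ne a le_top fun e => b (normal_of_top_le_normalizer e.ge)
  have n2 := k _ ((le_normalizer.trans (norm_baumann p T)).trans n1) n
  have cz : 𝐂(𝛀[p](T)) ≤ M := u.le_of_ne (le_centralizer_omegaOneCenter p T) le_top fun e => not_omega_le hT (V_ab p ⊤)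
    ((isPGroup_pCoreOf p ⊤).to_le inf_le_left) (norm_V p ⊤) (fun e => nZ (normal_of_le_cent (zc_eq hT c ▸ e)))
      ((omega_inf_cent hT c).le.trans (le_centralizer_comm.1 e.ge))
  have nj : 𝐍(𝐉[p](T)) ≤ M := k _ (le_normalizer.trans (norm_thompson p T)) fun n => by
    have n' : ⊤ ≤ 𝐍(𝐂(𝛀[p](𝐉[p](T)))) := le_normalizer_centralizer ((le_normalizer_of_normal' _ _).trans
      (normalizer_le_normalizer_omegaOneCenter p _))
    exact u.lt.not_ge (((hT.inf_of_le_normalizer le_top n').frattini_sup le_top n').ge.trans (sup_le ((centralizer_anti (le_omegaJ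
      (isElemAb_omegaOneCenter p T) (omegaOneCenter_le p T) ((omegaOneCenter_le_centralizer p T).trans
        (centralizer_anti (thompson_le p T))))).trans cz) (inf_le_right.trans (n1.trans n2))))
  have m : PM p ⊤ T (⊤ ⊓ M) _ := ⟨rfl, hT, by rwa [top_inf_eq], c, inf_le_inf_left _ cz, inf_le_inf_left _ nj⟩
  obtain ⟨L, -, l1, l2, l3, l4, l5⟩ := m.rk (inf_le_right.trans (n1.trans n2))
  obtain ⟨k, b⟩ := (y2 L (L ⊓ M) a' (e ▸ l3) l4 (e ▸ fun c => l2 ((le_centralizer_comm.1 ((le_inf (z T)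
    ((omegaOneCenter_le_centralizer p T).trans (centralizer_anti (baumann_le p T)))).trans c)).trans cz))).resolve_right
      fun c => l2 (c.trans n2)
  exact m.quad l1 (fun c => l2 (c.trans inf_le_right)) (e ▸ k) (e ▸ b) l5 h hX

end Family

/-- the centre as a functor -/
def FZ : ∀ (Q : Type u) [Group Q], Subgroup Q := fun Q _ => 𝐙[(⊤ : Subgroup Q)]

/-- the largest subgroup that is normal unless all chief factors admit quadratic elements -/
def FK (p : ℕ) : ∀ (Q : Type u) [Group Q], Subgroup Q := fun Q _ =>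
  sSup {Y | ∀ (G : Type u) [Group G] [Finite G] (τ : Q →* G), Injective τ → Good p (map τ ⊤) ∨ (Y.map τ).Normal}

theorem cpf_Z : IsCharPFunctor.{u} p FZ := ⟨fun _ _ _ h _ => center_ne_bot (h.to_subgroup ⊤) top_ne_bot, fun _ _ _ _ _ _ φ => by
  rw [FZ, FZ, map_inf_cent φ.injective, map_top_of_surjective _ φ.surjective]⟩

theorem cpf_K : IsCharPFunctor.{u} p (FK p) := by
  have k : ∀ (Q R : Type u) [Group Q] [Group R] (φ : Q ≃* R), (FK p Q).map φ.toMonoidHom ≤ FK p R := fun Q R _ _ φ => by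
    rw [FK, CF.PLocal.map_sSup_eq]
    refine sSup_le_sSup ?_
    rintro _ ⟨Y, hY, rfl⟩ G _ _ τ a
    have := hY G (τ.comp φ.toMonoidHom) (a.comp φ.injective)
    rwa [← map_map, ← map_map, map_top_of_surjective _ φ.surjective] at this
  refine ⟨fun Q _ _ h _ e => ?_, fun Q R _ _ _ _ φ => le_antisymm (k Q R φ) fun x hx => ⟨_, k R Q φ.symm ⟨x, hx, rfl⟩, by simp⟩⟩
  obtain ⟨Y, y0, y⟩ := exists_good h
  exact y0 (le_bot_iff.1 (e ▸ le_sSup y))

omit [Finite G] hp in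
theorem ind_Z (P : Subgroup G) : inducedFunctor FZ P = 𝐙[P] := by
  rw [inducedFunctor, FZ, map_inf_cent P.subtype_injective, ← MonoidHom.range_eq_map, range_subtype]

omit hp in
theorem good_or (P : Subgroup G) : Good p P ∨ (inducedFunctor (FK p) P).Normal := or_iff_not_imp_left.2 fun c => by
  rw [inducedFunctor, FK, sSup_eq_iSup', Subgroup.map_iSup]
  refine normal_of_top_le_normalizer (le_normalizer_iSup fun Y => ?_)
  have := (Y.2 G _ P.subtype_injective).resolve_left (by rwa [← MonoidHom.range_eq_map, range_subtype])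
  exact le_normalizer_of_normal' _ _

end CF.FF

namespace CF.Transfer

open Subgroup Cfsg
open scoped commutatorElement

universe u

/-- The transfer argument with an element depending on the chief factor. -/
theorem le_of_engel {G : Type*} [Group G] [Finite G] {p : ℕ} [Fact p.Prime] (S : Sylow p G) {D M : Subgroup G}
    (hSM : (S : Subgroup G) ≤ M) (hM : ∀ H : Subgroup G, (S : Subgroup G) ≤ H → H ≠ ⊤ → H ≤ M)
    (hMD : pCore p G ⊓ ⁅M, M⁆ ≤ D) (hc : ∀ X Y, IsChiefFactor X Y → X ≤ pCore p G → ∃ u ∈ (S : Subgroup G), u ∉ pCore p G ∧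
      iterCommutator X (zpowers u) (p - 1) ≤ Y) : pCore p G ⊓ commutator G ≤ D := by
  by_contra hD
  set Q := pCore p G with hQ
  have hQM : Q ≤ M := (CF.Solv.pCore_le_sylow S).trans hSM
  set K := (Q ⊓ commutator G ⊓ D).normalCore with hK
  have hKle : K ≤ Q ⊓ commutator G ⊓ D := normalCore_le _
  have hlt : K < Q ⊓ commutator G :=
    lt_of_le_of_ne (hKle.trans inf_le_left) fun e => hD (e ▸ hKle.trans inf_le_right)
  obtain ⟨X, hX, hXle⟩ := exists_chief_above hlt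
  have hXn := hX.2.1
  have hXQ : X ≤ Q := hXle.trans inf_le_left
  obtain ⟨u, hu, huQ, hc⟩ := hc X K hX hXQ
  refine hX.1.not_ge (normal_le_normalCore.2 (le_inf hXle fun x hx => ?_))
  obtain ⟨B, _, ψ, hψ, hker⟩ := exists_sectionFun (X := M) (Y := ⁅M, M⁆ ⊔ K) le_sup_left
  have := Fintype.ofFinite (G ⧸ M)
  have hxM : ∀ y ∈ X, ∀ g : G, g⁻¹ * y * g ∈ M := fun y hy g => hQM (hXQ (hXn.conj_mem' y hy g))
  have h1 := prod_conj_out_eq_one hψ (hxM x hx) (hXle hx).2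
  rw [prod_quotient_eq S hSM hM hu huQ (fun q : G ⧸ M => ψ (q.out⁻¹ * x * q.out)),
    map_conj_of_mul hψ (one_out_mem M) (hQM (hXQ hx)), hker x (hQM (hXQ hx))] at h1
  · obtain ⟨a, ha, k, hk, rfl⟩ := mem_sup_of_normal_right.1 h1
    have hk' := hKle hk
    exact D.mul_mem (hMD ⟨(Q.mul_mem_cancel_right hk'.1.1).1 (hXQ hx), ha⟩) hk'.2
  · intro g hg ω
    have h3 := prod_conj_eq_one (X := X) (Y := K) (fun y => ψ (ω.out⁻¹ * y * ω.out))
      (fun a ha b hb => by rw [← hψ _ (hxM a ha _) _ (hxM b hb _)]; congr 1; group)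
      (fun y hy hyX => (hker _ (hxM y hyX _)).2 (mem_sup_right (Subgroup.Normal.conj_mem' inferInstance y hy _)))
      (fun y hy => by
        rw [← map_pow_of_mul hψ (hxM y hy _), hker _ (M.pow_mem (hxM y hy _) _)]
        exact mem_sup_right (chief_pow_mem hX ((CF.Solv.pCore_isPGroup).to_le hXQ) (hXn.conj_mem' y hy _)))
      (le_normalizer_of_normal (mem_top _)) (zpowers_inv (g := g * u * g⁻¹) ▸ iterC_zpowers_conj hc g) hx
    rw [← h3]
    refine Finset.prod_congr rfl fun i _ => ?_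
    obtain ⟨m, hm, e⟩ := exists_smul_out_eq ((g * u * g⁻¹) ^ i) ω
    rw [e, ← map_conj_of_mul hψ hm (hxM _ (hXn.conj_mem x hx _) _), inv_pow]
    congr 1
    group

variable {G : Type u} [Group G] [Finite G] {p : ℕ} [Fact p.Prime]

open scoped CF.Loc

open CF.FF in
/-- For odd primes the centre and one more characteristic subgroup control transfer. -/
theorem transfer_ZK (h2 : p ≠ 2) (S : Sylow p G) : (S : Subgroup G) ⊓ commutator G ≤
    ((S : Subgroup G) ⊓ ⁅𝐍(𝐙[(S : Subgroup G)]), 𝐍(𝐙[(S : Subgroup G)])⁆) ⊔ ((S : Subgroup G) ⊓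
      ⁅𝐍(inducedFunctor (FK p) (S : Subgroup G)), 𝐍(inducedFunctor (FK p) (S : Subgroup G))⁆) := by
  have hW : ∀ W ∈ ({FZ, FK p} : Set (∀ (Q : Type u) [Group Q], Subgroup Q)), IsCharPFunctor p W := by
    rintro _ (rfl | rfl)
    exacts [cpf_Z, cpf_K]
  have := (familyControlsTransferIn_iff (indSet_isConj hW) (isSylowIn_top S)).1 (famTransfer_of_charP_sections (G := G) hW
    (fun Y _ _ _ c hsec => by_contra fun hG => ?_) G (involves_self G))
  · refine this.trans ?_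
    rw [famFocal, indSet, Set.image_pair, iSup_pair, ind_Z, top_inf_eq, top_inf_eq]
  let T : Sylow p Y := default
  obtain ⟨-, a, b, d⟩ := transfer_minimal_structure hW (Set.insert_nonempty _ _) hsec hG T
  have n1 := ind_Z (T : Subgroup Y) ▸ mt (famTransfer_of_normal hW (Or.inl rfl) T) hG
  have hT : (T : Subgroup Y) ≠ ⊤ := fun e => n1 (by rw [e]; infer_instance)
  have hSM := d _ le_rfl hT
  refine a (le_of_engel T hSM d ((inf_le_inf_right _ (CF.Solv.pCore_le_sylow T)).trans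
    (inf_commutator_le_famFocal_of_ne_top hW hsec T _ b hSM)) fun X K h hX => ?_)
  obtain ⟨u, hu, u0, e⟩ := (good_or (T : Subgroup Y)).resolve_right (mt (famTransfer_of_normal hW (Or.inr rfl) T) hG)
    (CF.Loc.isSyl_top T) (CF.Loc.isCharP_top_iff.2 c) _ ⟨hSM, lt_top_iff_ne_top.2 b, fun H l l' => d H l l'.ne⟩ n1 X K h
      (CF.Loc.pCoreOf_top p Y ▸ hX)
  have := h.2.1
  exact ⟨u, hu, CF.Loc.pCoreOf_top p Y ▸ u0, (iterC_anti le_normalizer_of_normal (two_le_sub_one h2)).trans e⟩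

/-- the normalizer of a weakly normal subgroup is controlled by its centralizer and the normalizer of the Sylow subgroup -/
theorem inf_commutator_normalizer_le (S : Sylow p G) {Z : Subgroup G} (h : (S : Subgroup G) ≤ 𝐂(Z)) :
    (S : Subgroup G) ⊓ ⁅𝐍(Z), 𝐍(Z)⁆ ≤ ((S : Subgroup G) ⊓ ⁅𝐂(Z), 𝐂(Z)⁆) ⊔
      ((S : Subgroup G) ⊓ ⁅𝐍((S : Subgroup G)), 𝐍((S : Subgroup G))⁆) :=
  (isSylowIn_of_le S (h.trans (centralizer_le_normalizer _))).inf_commutator_le fun x hx g hg e => by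
    obtain ⟨n, hn, c, hc, rfl⟩ := (CF.Loc.isSyl_of_le S h).frattini' (normalizer_le_normalizer_centralizer Z hg)
    have a : c * x * c⁻¹ ∈ (S : Subgroup G) := by simpa [mul_assoc] using inv_conj_mem_of_mem_normalizer hn e
    rw [show x⁻¹ * (n * c * x * (n * c)⁻¹) = x⁻¹ * (c * x * c⁻¹) * ((c * x * c⁻¹)⁻¹ * (n * (c * x * c⁻¹) * n⁻¹)) by group]
    exact mul_mem (mem_sup_left ⟨S.1.mul_mem (S.1.inv_mem hx) a, inv_mul_conj_mem_commutator (h hx) hc⟩) (mem_sup_right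
      ⟨S.1.mul_mem (S.1.inv_mem a) (conj_mem_of_mem_normalizer hn a), inv_mul_conj_mem_commutator (le_normalizer a) hn⟩)

end CF.Transfer
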