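/-
The group `F(p)` and eigenvalues produced by a quadratic pair.
-/
import Cfsg.Agent.PLocal.Qd2
import Cfsg.Agent.PLocal.FusSC

set_option autoImplicit false

namespace CF.ZF

open Subgroup Cfsg CF.Transfer CF.PLocal
open scoped commutatorElement Matrix MatrixGroups

variable {G : Type*} [Group G] {p : ℕ}

/-- An eigenvalue on a quotient of an abelian group is an eigenvalue. -/
theorem ev [Finite G] {D W : Subgroup G} (hD : IsMulCommutative D) (hW : W ≤ D) {h d : G} {l : ℕ}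
    (hh : h ∈ normalizer (W : Set G)) (hd : d ∈ D) (hdW : d ∉ W)
    (h1 : h * d * h⁻¹ * (d ^ l)⁻¹ ∈ W) : ∃ c ∈ D, c ≠ 1 ∧ h * c * h⁻¹ = c ^ l := by
  have key : ∀ x ∈ D, ∀ y ∈ D, x ≠ y → h * x * h⁻¹ * (x ^ l)⁻¹ ∈ W →
      h * x * h⁻¹ * (x ^ l)⁻¹ = h * y * h⁻¹ * (y ^ l)⁻¹ → ∃ c ∈ D, c ≠ 1 ∧ h * c * h⁻¹ = c ^ l := by
    intro x hx y hy hne h2 h3
    refine ⟨x * y⁻¹, mul_mem hx (inv_mem hy), fun e => hne (mul_inv_eq_one.1 e), ?_⟩
    have c1 : Commute x y⁻¹ := comm_of_isMulCommutative hD hx (inv_mem hy)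
    have c2 := comm_of_isMulCommutative hD (hW h2)
      (mul_mem (pow_mem hx l) (inv_mem (pow_mem hy l)))
    rw [c1.mul_pow, inv_pow]
    calc _ = h * x * h⁻¹ * (x ^ l)⁻¹ * (x ^ l * (y ^ l)⁻¹) * (h * y * h⁻¹ * (y ^ l)⁻¹)⁻¹ := by group
      _ = _ := by rw [c2, ← h3]; group
  let f : W → W := fun w => ⟨h * w * h⁻¹ * ((w : G) ^ l)⁻¹,
    mul_mem (conj_mem_of_mem_normalizer hh w.2) (inv_mem (pow_mem w.2 l))⟩
  by_cases hf : Function.Injective f
  · obtain ⟨w, hw⟩ := Finite.surjective_of_injective hf ⟨_, h1⟩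
    exact key d hd w (hW w.2) (fun e => hdW (e ▸ w.2)) h1 (congrArg Subtype.val hw).symm
  · obtain ⟨x, y, e, hne⟩ := Function.not_injective_iff.1 hf
    exact key x (hW x.2) y (hW y.2) (fun e => hne (Subtype.ext e)) (f x).2 (congrArg Subtype.val e)

theorem inf_cent_ne_bot [Finite G] [Fact p.Prime] {V T : Subgroup G} (hV : IsPGroup p V)
    (hT : IsPGroup p T) (hn : T ≤ normalizer (V : Set G)) (h0 : V ≠ ⊥) :
    V ⊓ centralizer (T : Set G) ≠ ⊥ := fun e => by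
  have := (hT.to_sup_of_normal_right' hV hn).isNilpotent
  exact CF.Solv.inf_centralizer_ne_bot_of_isNilpotent (le_sup_right : V ≤ T ⊔ V)
    (sup_le hn le_normalizer) h0
    (le_bot_iff.1 ((inf_le_inf_left _ (centralizer_anti le_sup_left)).trans e.le))

section F
variable {F : Type*} [Field F]

theorem mem_fOver {M : SL(3, F)} : M ∈ fOver F ↔ M 1 0 = 0 ∧ M ∈ qdOver F := by
  let K : Subgroup SL(3, F) :=
    ((normalizer (upU F : Set SL(2, F))).comap qdBlk).map (qdOver F).subtype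
  have hK : ∀ M, M ∈ K ↔ M 1 0 = 0 ∧ M ∈ qdOver F := fun M =>
    ⟨by rintro ⟨N, h, rfl⟩; exact ⟨mem_normalizer_upU.1 h, N.2⟩,
      fun h => ⟨⟨M, h.2⟩, mem_normalizer_upU.2 h.1, rfl⟩⟩
  rw [← hK, ← closure_eq K, fOver]
  congr! 2
  ext N
  rw [SetLike.mem_coe, hK, mem_qdOver]
  rfl

theorem fOver_le : fOver F ≤ qdOver F := fun _ h => (mem_fOver.1 h).2

/-- A natural module for the Borel subgroup of `SL₂(F)` yields a section `F`. -/
theorem involves_fOver (h2 : (2 : F) ≠ 0) {X : Type*} [Group X]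
    [Finite X] (j : X →* G) (ψ : X →* SL(2, F)) (hψ : ∀ M : SL(2, F), M 1 0 = 0 → ∃ x, ψ x = M)
    (π : (Fin 2 → F) → G) (hadd : ∀ u v, π (u + v) = π u * π v) (hinj : ∀ u, π u = 1 → u = 0)
    (heq : ∀ x u, π ((ψ x : Matrix (Fin 2) (Fin 2) F) *ᵥ u) = j x * π u * (j x)⁻¹) :
    Involves (fOver F) G := by
  have h0 : π 0 = 1 := by
    have := hadd 0 0
    rw [add_zero] at this
    exact (left_eq_mul.1 this)
  have hneg : ∀ u, π (-u) = (π u)⁻¹ := fun u =>
    eq_inv_of_mul_eq_one_left (by rw [← hadd, neg_add_cancel, h0])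
  have hpow : ∀ u (n : ℕ), π (n • u) = π u ^ n := fun u n => by
    induction n with
    | zero => rw [zero_smul, h0, pow_zero]
    | succ n ih => rw [succ_nsmul, hadd, ih, pow_succ]
  have hZ : (zpowers (-1 : SL(2, F))).Normal :=
    ⟨fun n hn g => by
      rwa [mem_center_iff.1 (zpowers_le.2 neg_one_mem_center_SL2 hn) g, mul_inv_cancel_right]⟩
  have hZ2 : IsPGroup 2 (zpowers (-1 : SL(2, F))) := by
    rintro ⟨_, k, rfl⟩
    refine ⟨1, Subtype.ext ?_⟩
    change ((-1 : SL(2, F)) ^ k) ^ 2 ^ 1 = 1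
    rw [← zpow_natCast, ← zpow_mul, mul_comm, zpow_mul, zpow_natCast, pow_one, neg_one_sq, one_zpow]
  obtain ⟨T, hT⟩ := exists_isSylowIn 2 ((zpowers (-1 : SL(2, F))).comap ψ)
  have hT1 : ∀ d ∈ (zpowers (-1 : SL(2, F))).comap ψ, ∃ s ∈ T, ψ s = ψ d := fun d hd => by
    obtain ⟨x, hx, s, hs, rfl⟩ := hT.exists_pRes_mul hd
    refine ⟨s, hs, ?_⟩
    have h1 := mem_map_of_mem ψ hx
    rw [map_pRes, pRes_eq_bot_of_isPGroup (hZ2.to_le (map_comap_le _ _)), mem_bot] at h1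
    rw [map_mul, h1, one_mul]
  obtain ⟨t, ht, ht'⟩ : ∃ t ∈ T, ψ t = -1 := by
    obtain ⟨x, hx⟩ := hψ (-1) (by simp)
    exact hx ▸ hT1 x (by rw [mem_comap, hx]; exact mem_zpowers _)
  let ι := inclusion (fOver_le (F := F))
  let S : Subgroup (fOver F × normalizer (T : Set X)) :=
    ((qdBlk.comp ι).comp (MonoidHom.fst _ _)).eqLocus
      (ψ.comp ((normalizer (T : Set X)).subtype.comp (MonoidHom.snd _ _)))
  let f : S →* G := MonoidHom.mk' (fun s => π (qdCol (ι s.1.1)) * j s.1.2) (by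
    rintro ⟨⟨M, x⟩, hMx⟩ ⟨⟨N, y⟩, -⟩
    change qdBlk (ι M) = ψ x at hMx
    change π (qdCol (ι M * ι N)) * j (x * y) = π (qdCol (ι M)) * j x * (π (qdCol (ι N)) * j y)
    rw [qdCol_mul, hadd, hMx, heq, map_mul]
    group)
  refine involves_of_ker_le f ((MonoidHom.fst _ _).comp S.subtype) (fun M => ?_) ?_
  · obtain ⟨x, hx⟩ := hψ (qdBlk (ι M)) (mem_fOver.1 M.2).1
    obtain ⟨y, hy, d, hd, rfl⟩ := hT.frattini' (h := x) (le_normalizer_of_normal (mem_top x))
    obtain ⟨s, hs, hs'⟩ := hT1 d hd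
    refine ⟨⟨(M, ⟨y * s, mul_mem hy (le_normalizer hs)⟩), ?_⟩, rfl⟩
    change qdBlk (ι M) = ψ (y * s)
    rw [← hx, map_mul, map_mul, hs']
  · rintro ⟨⟨M, x, hx⟩, hMx⟩ h1
    change qdBlk (ι M) = ψ x at hMx
    change π (qdCol (ι M)) * j x = 1 at h1
    change M = 1
    refine inclusion_injective fOver_le (?_ : ι M = 1)
    generalize ι M = M at hMx h1
    have h3 : j x = π (-qdCol M) := by rw [hneg]; exact eq_inv_of_mul_eq_one_right h1
    have h4 : x * t * x⁻¹ * t⁻¹ ∈ T := mul_mem ((mem_normalizer_iff.1 hx t).1 ht) (inv_mem ht)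
    obtain ⟨k, hk⟩ := hT.isPGroup ⟨_, h4⟩
    have h5 : j (x * t * x⁻¹ * t⁻¹) = π (2 • -qdCol M) := by
      have h6 := heq t (qdCol M)
      rw [ht', Matrix.SpecialLinearGroup.coe_neg, Matrix.SpecialLinearGroup.coe_one,
        Matrix.neg_mulVec, Matrix.one_mulVec] at h6
      rw [two_smul, hadd, map_mul, map_mul, map_mul, map_inv, map_inv, h3, ← hneg, neg_neg,
        mul_assoc, mul_assoc, ← mul_assoc (j t), ← h6]
    have h7 : qdCol M = 0 := by
      have h8 := congrArg j (show (x * t * x⁻¹ * t⁻¹) ^ 2 ^ k = 1 from congrArg Subtype.val hk)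
      rw [map_pow, h5, ← hpow, map_one, smul_smul, ← Nat.cast_smul_eq_nsmul F] at h8
      have h9 := hinj _ h8
      rw [smul_eq_zero, neg_eq_zero] at h9
      refine h9.resolve_left ?_
      push_cast
      exact mul_ne_zero (pow_ne_zero _ h2) h2
    rw [h7, neg_zero, h0] at h3
    refine qd_ext ?_ (by rw [h7, qdCol_one])
    rw [hMx, map_one]
    refine SL2_eq_one_of_mulVec fun v => ?_
    have h8 := heq x v
    rw [h3, one_mul, inv_one, mul_one] at h8
    refine sub_eq_zero.1 (hinj _ ?_)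
    rw [sub_eq_add_neg, hadd, hneg, h8, mul_inv_cancel]

end F

variable [hp : Fact p.Prime]

/-- A version of Dickson's lemma respecting the Borel subgroups. -/
theorem exists_SL2_borel {K : Type*} [Field K] [Finite K] [CharP K p] (hp2 : p ≠ 2)
    {H : Subgroup SL(2, K)} {μ : K} (hμ : μ ≠ 0) (ha : upT μ ∈ H) (hb : loT 1 ∈ H) :
    ∃ f : SL(2, ZMod p) →* SL(2, K), Function.Injective f ∧ f.range ≤ H ∧
      ∃ ν, ν ≠ 0 ∧ f (upT 1) = upT ν := by
  obtain ⟨f, hf, hle⟩ := exists_SL2_le_of_upT_loT hp2 hμ ha hb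
  have h1 : ∀ x : SL(2, K), x ^ p = 1 → IsPGroup p (zpowers x) := fun x hx =>
    isEA_isPGroup (isEA_zpowers hx)
  obtain ⟨P, hP1, hP⟩ := exists_isSylowIn_ge (h1 _ (upT_pow_char p μ)) (zpowers_le.2 ha)
  have h2 : f (upT 1) ^ p = 1 := by rw [← map_pow, upT_pow_char, map_one]
  obtain ⟨x, hx, hx'⟩ := hP.exists_cj_le (h1 _ h2) (zpowers_le.2 (hle ⟨_, rfl⟩))
  have h3 : x * f (upT 1) * x⁻¹ ∈ P := hx' (conj_mem_cj (mem_zpowers _))
  refine ⟨(MulAut.conj x).toMonoidHom.comp f, (MulAut.conj x).injective.comp hf, ?_, ?_⟩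
  · rintro _ ⟨A, rfl⟩
    exact mul_mem (mul_mem hx (hle ⟨A, rfl⟩)) (inv_mem hx)
  change ∃ ν, ν ≠ 0 ∧ x * f (upT 1) * x⁻¹ = upT ν
  have h4 : x * f (upT 1) * x⁻¹ ≠ 1 := fun e => by
    rw [conj_eq_one_iff, map_eq_one_iff f hf, ← upT_zero] at e
    exact one_ne_zero (upT_injective e)
  generalize x * f (upT 1) * x⁻¹ = y at h3 h4
  obtain ⟨k, hk⟩ := hP.isPGroup ⟨y, h3⟩
  obtain ⟨k', hk'⟩ := hP.isPGroup ⟨upT μ * y, mul_mem (hP1 (mem_zpowers _)) h3⟩
  have t1 := SL2_trace_of_pow (M := y) (congrArg Subtype.val hk)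
  have t2 := SL2_trace_of_pow (M := upT μ * y) (congrArg Subtype.val hk')
  simp [upT_val, Matrix.mul_apply, Fin.sum_univ_two] at t2
  have t3 : y 1 0 = 0 := by
    have : μ * y 1 0 = 0 := by linear_combination t2 - t1
    exact (mul_eq_zero.1 this).resolve_left hμ
  have hd := y.det_coe
  rw [Matrix.det_fin_two, t3] at hd
  have t4 : y 0 0 = 1 := by
    have : (y 0 0 - 1) ^ 2 = 0 := by linear_combination y 0 0 * t1 - hd
    linear_combination pow_eq_zero_iff two_ne_zero |>.1 this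
  have t5 : y = upT (y 0 1) := by
    ext i j
    fin_cases i <;> fin_cases j <;> simp [upT_val, t3, t4]
    linear_combination t1 - t4
  exact ⟨y 0 1, fun e => h4 (by rw [t5, e, upT_zero]), t5⟩

/-- A quadratic pair whose product is fixed point free. -/
theorem lem1 [Finite G] (hp2 : p ≠ 2) {V : Subgroup G} (hV : IsElementaryAbelian p V) (h0 : V ≠ ⊥)
    {a b : G} (haV : a ∈ normalizer (V : Set G)) (hbV : b ∈ normalizer (V : Set G))
    (ha : ⁅⁅V, zpowers a⁆, zpowers a⁆ = ⊥) (hb : ⁅⁅V, zpowers b⁆, zpowers b⁆ = ⊥)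
    (hap : IsPGroup p (zpowers a)) (hf : ∀ v ∈ V, Commute (a * b) v → v = 1) :
    ∃ T V' : Subgroup G, IsPGroup p T ∧ a ∈ T ∧ V' ≤ V ∧ V' ≠ ⊥ ∧ a ∈ normalizer (V' : Set G) ∧
      b ∈ normalizer (V' : Set G) ∧ (∀ v ∈ V', Commute a v → ∀ l : ℕ, ¬ p ∣ l →
        ∃ h ∈ normalizer (T : Set G), h * v * h⁻¹ = v ^ l) ∧
      Involves (fOver (ZMod p)) (normalizer (T : Set G)) := by
  have hXV : closure {a, b} ≤ normalizer (V : Set G) := closure_pair_le.2 ⟨haV, hbV⟩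
  rcases quad_pair_EA hV haV hbV ha hb with h | ⟨N, μ, hμ, φ, h1, h2, h3⟩
  · exfalso
    have hab : zpowers (a * b) ≤ closure {a, b} :=
      zpowers_le.2 (mul_mem (left_mem_closure_pair a b) (right_mem_closure_pair a b))
    obtain ⟨y, hy, z, hz, ⟨k, hk⟩, hz', e, -⟩ :=
      exists_pPart_pPrimePart (p := p) (isOfFinOrder_of_finite (a * b))
    refine inf_cent_ne_bot (isEA_isPGroup hV) (isPGroup_zpowers hk) (zpowers_le.2 (hXV (hab hy))) h0
      (eq_bot_iff.2 fun v hv => hf v hv.1 ?_)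
    rw [e]
    exact Commute.mul_left (hv.2 y (mem_zpowers y))
      (Commute.symm (h (mem_pRes_of_coprime (hab hz) hz') v hv.1))
  obtain ⟨f, hfi, hle, ν, hν, hfν⟩ := exists_SL2_borel hp2 (H := φ.range) hμ ⟨_, h1⟩ ⟨_, h2⟩
  obtain ⟨ι, hι, hιf⟩ := exists_plane_of_SL2_hom hp2 f hfi
  have he0 : ι ![1, 0] ≠ 0 := by
    rw [← ι.map_zero, hι.ne_iff]
    exact fun h => one_ne_zero (congrFun h 0)
  obtain ⟨π, hπV, hπ1, hadd, heq⟩ := h3 (ι ![1, 0]) he0
  have hc1 : ι ![1, 0] 1 = 0 := by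
    have := congrFun (hιf (upT 1) ![1, 0]) 0
    rw [hfν, upT_mulVec, upT_mulVec] at this
    simpa [hν] using this
  have hc0 : ι ![1, 0] 0 ≠ 0 := fun e => he0 (by ext i; fin_cases i <;> simp [e, hc1])
  have hB : ∀ M : SL(2, ZMod p), M 1 0 = 0 → f M 1 0 = 0 ∧ f M 0 0 = (M 0 0).val := by
    intro M hM
    have e := hιf M ![1, 0]
    have e' : (M : Matrix (Fin 2) (Fin 2) (ZMod p)) *ᵥ ![1, 0] = (M 0 0).val • ![1, 0] := by
      ext i; fin_cases i <;> simp [Matrix.mulVec, dotProduct, hM]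
    rw [e', map_nsmul] at e
    have e0 := congrFun e 0
    have e1 := congrFun e 1
    simp [Matrix.mulVec, dotProduct, hc1, hc0] at e0 e1
    exact ⟨e1, by simpa using e0⟩
  obtain ⟨T, hT1, hT⟩ := exists_isSylowIn_ge (H := (upU (GaloisField p N)).comap φ)
    (Q := zpowers ⟨a, left_mem_closure_pair a b⟩)
    ((isPGroup_subgroupOf hap _).to_le (zpowers_le.2 (mem_zpowers a)))
    (zpowers_le.2 (by rw [mem_comap, h1]; exact upT_mem_upU μ))
  have key : ∀ M : SL(2, ZMod p), M 1 0 = 0 → ∃ x ∈ normalizer (T : Set (closure {a, b})),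
      φ x = f M := by
    intro M hM
    obtain ⟨x, hx⟩ := hle ⟨M, rfl⟩
    obtain ⟨y, hy, n, hn, rfl⟩ := hT.frattini' (h := x)
      (le_normalizer_comap φ (by rw [mem_comap, hx]; exact mem_normalizer_upU.2 (hB M hM).1))
    obtain ⟨r, hr, s, hs, rfl⟩ := hT.exists_pRes_mul hn
    have h4 := mem_map_of_mem φ hr
    rw [map_pRes, pRes_eq_bot_of_isPGroup ((isEA_isPGroup (isEA_upU p)).to_le (map_comap_le _ _)),
      mem_bot] at h4
    exact ⟨y * s, mul_mem hy (le_normalizer hs), by rw [← hx, map_mul, map_mul, map_mul, h4, one_mul]⟩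
  have hN : ∀ x ∈ normalizer (T : Set (closure {a, b})), (x : G) ∈
      normalizer ((T.map (closure {a, b}).subtype ⊔ V : Subgroup G) : Set G) := fun x hx =>
    le_normalizer_sup (X := zpowers (x : G))
      (zpowers_le.2 (le_normalizer_map _ (mem_map_of_mem (closure {a, b}).subtype hx)))
      (zpowers_le.2 (hXV x.2)) (mem_zpowers _)
  let π' : Multiplicative (Fin 2 → GaloisField p N) →* G :=
    MonoidHom.mk' (fun u => π u.toAdd) fun u v => hadd _ _
  have hpow : ∀ u (n : ℕ), π (n • u) = π u ^ n := fun u n => map_pow π' (.ofAdd u) n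
  have hn : ∀ x : closure {a, b}, (x : G) ∈ normalizer (π'.range : Set G) := fun x =>
    CF.PLocal.mem_normalizer_of_conj_mem (by rintro _ ⟨u, rfl⟩; exact ⟨.ofAdd _, heq x _⟩)
  refine ⟨T.map (closure {a, b}).subtype ⊔ V, π'.range, (hT.isPGroup.map _).to_sup_of_normal_right'
    (isEA_isPGroup hV) ((map_subtype_le _).trans hXV),
    mem_sup_left (mem_map_of_mem _ (hT1 (mem_zpowers _))), by rintro _ ⟨u, rfl⟩; exact hπV _,
    fun e => hπ1 (mem_bot.1 (e.le ⟨.ofAdd _, rfl⟩)), hn ⟨a, left_mem_closure_pair a b⟩,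
    hn ⟨b, right_mem_closure_pair a b⟩, ?_, ?_⟩
  · rintro _ ⟨u, rfl⟩ hc l hl
    change Commute a (π u.toAdd) at hc
    change ∃ h ∈ _, h * π u.toAdd * h⁻¹ = π u.toAdd ^ l
    generalize u.toAdd = u at hc
    have e : u = ![u 0, 0] + ![0, u 1] := by ext i; fin_cases i <;> simp
    have c1 : Commute a (π ![u 0, 0]) := by
      have := heq ⟨a, left_mem_closure_pair a b⟩ ![u 0, 0]
      rw [h1, upT_mulVec] at this
      exact mul_inv_eq_iff_eq_mul.1 (by simpa using this.symm)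
    have c2 : Commute b (π ![0, u 1]) := by
      have := heq ⟨b, right_mem_closure_pair a b⟩ ![0, u 1]
      rw [h2, show (loT 1 : SL(2, GaloisField p N)).1 *ᵥ ![0, u 1] = ![0, u 1] by
        ext i; fin_cases i <;> simp [loT_val, Matrix.mulVec, dotProduct]] at this
      exact mul_inv_eq_iff_eq_mul.1 this.symm
    rw [e, hadd] at hc ⊢
    have c3 : Commute a (π ![0, u 1]) := by simpa using c1.inv_right.mul_right hc
    rw [hf _ (hπV _) (c3.mul_left c2), mul_one]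
    have hl' : (l : ZMod p) ≠ 0 := by rwa [Ne, ZMod.natCast_eq_zero_iff]
    let M : SL(2, ZMod p) := ⟨!![l, 0; 0, (l : ZMod p)⁻¹], by simp [Matrix.det_fin_two, hl']⟩
    obtain ⟨x, hx, hx'⟩ := key M rfl
    refine ⟨x, hN x hx, ?_⟩
    obtain ⟨b1, b2⟩ := hB M rfl
    rw [← heq, ← hpow, hx']
    congr 1
    have b3 : f M 0 0 = l := by
      rw [b2]
      change (((l : ZMod p).val : ℕ) : GaloisField p N) = l
      rw [ZMod.val_natCast, CharP.cast_eq_mod _ p l]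
    ext i; fin_cases i <;> simp [Matrix.mulVec, dotProduct, b1, b3]
  · let X' := normalizer (T : Set (closure {a, b})) ⊓ f.range.comap φ
    let ψ : X' →* SL(2, ZMod p) := (MonoidHom.ofInjective hfi).symm.toMonoidHom.comp
      ((φ.subgroupComap f.range).comp (inclusion inf_le_right))
    have hψ : ∀ x, f (ψ x) = φ x := fun x => MonoidHom.apply_ofInjective_symm hfi _
    refine involves_fOver (two_ne_zero_of_charP _ hp2)
      (((Subgroup.subtype _).comp X'.subtype).codRestrict _ fun x => hN x x.2.1) ψ (fun M hM => ?_)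
      (fun u => ⟨π (ι u), le_normalizer (mem_sup_right (hπV _))⟩)
      (fun u v => Subtype.ext (by simp [hadd])) (fun u hu => ?_) (fun x u => Subtype.ext ?_)
    · obtain ⟨x, hx, hx'⟩ := key M hM
      exact ⟨⟨x, hx, M, hx'.symm⟩, hfi (by rw [hψ, hx'])⟩
    · by_contra hne
      obtain ⟨A, hA⟩ := exists_SL2_mulVec_eq hne
      obtain ⟨x, hx⟩ := hle ⟨A, rfl⟩
      apply hπ1
      rw [← hA, ← hιf, ← hx, heq, show π (ι u) = 1 from congrArg Subtype.val hu, mul_one,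
        mul_inv_cancel]
    · change π (ι _) = x.1.1 * π (ι u) * x.1.1⁻¹
      rw [← hιf, hψ, heq]

end CF.ZF
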