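/-
A quadratic subgroup lying in a unique maximal subgroup produces `F(p)` and eigenvalues.
-/
import Cfsg.Agent.PLocal.ZFa

set_option autoImplicit false

namespace CF.ZF

open Subgroup Cfsg CF.Transfer CF.PLocal
open scoped commutatorElement

variable {G : Type*} [Group G] {p : ℕ}

theorem involves_mono {X : Type*} [Group X] {H K : Subgroup G} (h : Involves X H) (hle : H ≤ K) :
    Involves X K := involves_trans h (involves_of_injective _ (inclusion_injective hle))

theorem involves_comap {X G' : Type*} [Group X] [Group G'] {f : G →* G'}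
    (hf : Function.Surjective f) {H : Subgroup G'} (h : Involves X H) : Involves X (H.comap f) :=
  involves_trans h (involves_of_surjective _ (f.subgroupComap_surjective_of_surjective H hf))

theorem involves_map_subtype {X : Type*} [Group X] {K : Subgroup G} {H : Subgroup K}
    (h : Involves X H) : Involves X (H.map K.subtype) :=
  involves_trans h (involves_of_equiv (H.equivMapOfInjective _ K.subtype_injective).symm)

theorem involves_cj {X : Type*} [Group X] {H : Subgroup G} (h : Involves X H) (g : G) :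
    Involves X (cj g H) := involves_trans h (involves_of_equiv (cjEquiv g H).symm)

variable [hp : Fact p.Prime] [Finite G]

theorem lem2 (hp2 : p ≠ 2) {E W : Subgroup G} (hE : IsElementaryAbelian p E) (hW : W ≤ E)
    (h0 : ¬ E ≤ W) {a b : G} (haE : a ∈ normalizer (E : Set G)) (hbE : b ∈ normalizer (E : Set G))
    (haW : a ∈ normalizer (W : Set G)) (hbW : b ∈ normalizer (W : Set G))
    (ha : ⁅⁅E, zpowers a⁆, zpowers a⁆ = ⊥) (hb : ⁅⁅E, zpowers b⁆, zpowers b⁆ = ⊥)
    (hap : IsPGroup p (zpowers a)) (hf : ∀ v ∈ E, Commute (a * b) v → v = 1) :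
    ∃ T W' : Subgroup G, IsPGroup p T ∧ a ∈ T ∧ W' ≤ E ∧ W < W' ∧ a ∈ normalizer (W' : Set G) ∧
      b ∈ normalizer (W' : Set G) ∧ (∀ v ∈ W', Commute a v → ∀ l : ℕ, ¬ p ∣ l →
        ∃ h ∈ normalizer (T : Set G), h * v * h⁻¹ * (v ^ l)⁻¹ ∈ W) ∧
      Involves (fOver (ZMod p)) (normalizer (T : Set G)) := by
  set K := normalizer (W : Set G)
  have hEK : E ≤ K := le_normalizer_of_isMulCommutative hE.1 le_rfl hW
  let f := QuotientGroup.mk' (W.subgroupOf K)
  have hk : ∀ x : K, f x = 1 ↔ (x : G) ∈ W := fun x => QuotientGroup.eq_one_iff x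
  have hn : ∀ (X : Subgroup (K ⧸ W.subgroupOf K)),
      ((normalizer (X : Set _)).comap f).map K.subtype ≤
        normalizer (((X.comap f).map K.subtype : Subgroup G) : Set G) := fun X =>
    (map_mono (le_normalizer_comap f)).trans (le_normalizer_map _)
  have hnE : ∀ x : K, (x : G) ∈ normalizer (E : Set G) →
      f x ∈ normalizer (((E.subgroupOf K).map f : Subgroup _) : Set _) := fun x hx =>
    le_normalizer_map f (mem_map_of_mem f (le_normalizer_comap K.subtype hx))
  have hq : ∀ x : K, ⁅⁅E, zpowers (x : G)⁆, zpowers (x : G)⁆ = ⊥ →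
      ⁅⁅(E.subgroupOf K).map f, zpowers (f x)⁆, zpowers (f x)⁆ = ⊥ := fun x hx => by
    refine map_commutator_zpowers_zpowers f (le_trans (le_of_eq ?_) bot_le)
    apply map_injective K.subtype_injective
    rw [map_commutator, map_commutator, MonoidHom.map_zpowers, Subgroup.map_bot,
      map_subgroupOf_eq_of_le hEK]
    exact hx
  obtain ⟨T, V', h1, h2, h3, h4, h5, h6, h7, h8⟩ := lem1 hp2 (isEA_map (isEA_subgroupOf hE K) f)
    (fun e => h0 fun x hx => (hk ⟨x, hEK hx⟩).1 (mem_bot.1 (e.le (mem_map_of_mem f hx))))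
    (hnE ⟨a, haW⟩ haE) (hnE ⟨b, hbW⟩ hbE) (hq ⟨a, haW⟩ ha) (hq ⟨b, hbW⟩ hb)
    (((isPGroup_subgroupOf hap K).map f).to_le (zpowers_le.2 (mem_map_of_mem f (mem_zpowers a))))
    (by
      rintro _ ⟨e, he, rfl⟩ hc
      by_contra hne
      obtain ⟨c, c1, c2, c3⟩ := ev (l := 1) hE.1 hW (mul_mem haW hbW) he (mt (hk e).2 hne)
        ((hk (⟨a, haW⟩ * ⟨b, hbW⟩ * e * (⟨a, haW⟩ * ⟨b, hbW⟩)⁻¹ * (e ^ 1)⁻¹)).1 (by
          rw [pow_one, map_mul, map_mul, map_mul, map_inv, map_inv, map_mul, hc.eq]; group))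
      exact c2 (hf c c1 (mul_inv_eq_iff_eq_mul.1 (c3.trans (pow_one c)))))
  refine ⟨(T.comap f).map K.subtype, (V'.comap f).map K.subtype,
    (h1.comap_of_ker_isPGroup f ?_).map _, ⟨⟨a, haW⟩, h2, rfl⟩, ?_, lt_of_le_not_ge ?_ ?_,
    hn _ ⟨⟨a, haW⟩, h5, rfl⟩, hn _ ⟨⟨b, hbW⟩, h6, rfl⟩, ?_,
    involves_mono (involves_map_subtype (involves_comap (QuotientGroup.mk'_surjective _) h8)) (hn _)⟩
  · rw [QuotientGroup.ker_mk']
    exact isPGroup_subgroupOf ((isEA_isPGroup hE).to_le hW) K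
  · rintro _ ⟨x, hx, rfl⟩
    obtain ⟨y, hy, e⟩ := h3 hx
    have := E.mul_mem hy (hW ((hk (y⁻¹ * x)).1 (by rw [map_mul, map_inv, e, inv_mul_cancel])))
    simpa using this
  · exact fun x hx => ⟨⟨x, le_normalizer hx⟩, by
      rw [SetLike.mem_coe, mem_comap, (hk _).2 hx]; exact one_mem _, rfl⟩
  · refine fun e => h4 (eq_bot_iff.2 fun x hx => ?_)
    obtain ⟨x, rfl⟩ := QuotientGroup.mk'_surjective _ x
    exact (hk x).2 (e (mem_map_of_mem _ hx))
  · rintro _ ⟨v, hv, rfl⟩ hc l hl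
    obtain ⟨h, a1, a2⟩ := h7 _ hv (Commute.map (show Commute (⟨a, haW⟩ : K) v from
      Subtype.ext hc) f) l hl
    obtain ⟨h, rfl⟩ := QuotientGroup.mk'_surjective _ h
    refine ⟨h, hn _ (mem_map_of_mem _ a1), (hk (h * v * h⁻¹ * (v ^ l)⁻¹)).1 ?_⟩
    rw [map_mul, map_mul, map_mul, map_inv, map_inv, map_pow, mul_inv_eq_one]
    exact a2

omit hp in
theorem not_cj_le {A C N : Subgroup G} [C.Normal] (hU : ∀ X ≠ ⊤, A ≤ X → C ≤ X → X ≤ N)
    (hN : N ≠ ⊤) (hC : C ≤ N) (hA : A ≤ N) (hg : ¬ A ≤ N.normalCore) {g : G} (h : g ∉ N) :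
    ¬ cj g A ≤ N := fun e => by
  have h1 : cj g⁻¹ N ≤ N := hU _ (mt cj_eq_top_iff.1 hN) (cj_le_iff.1 e)
    (by rw [le_cj_iff, cj_eq_of_normal]; exact hC)
  by_cases h2 : normalizer (N : Set G) = ⊤
  · have := normalizer_eq_top_iff.1 h2
    exact hg (by rwa [normalCore_eq_self])
  · exact h (inv_mem_iff.1 (hU _ h2 (hA.trans le_normalizer) (hC.trans le_normalizer)
      (mem_normalizer_of_cj_le h1)))

theorem lem0 (hp2 : p ≠ 2) {E D A : Subgroup G} [hEn : E.Normal] (hE : IsElementaryAbelian p E)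
    (hA : IsPGroup p A) (hq : ⁅⁅E, A⁆, A⁆ = ⊥) (hD : D ≤ centralizer (A : Set G))
    (hB : normalClosure (D : Set G) = E) (hD0 : D ≠ ⊥) (hZ : E ⊓ center G = ⊥)
    (hU : ∀ X ≠ ⊤, A ≤ X → centralizer (E : Set G) ≤ X → X ≤ normalizer (D : Set G))
    (hg : ¬ A ≤ (normalizer (D : Set G)).normalCore) :
    (∀ l : ℕ, ¬ p ∣ l → ∃ d ∈ D, d ≠ 1 ∧ ∃ h ∈ normalizer (D : Set G), h * d * h⁻¹ = d ^ l) ∧
      Involves (fOver (ZMod p)) (normalizer (D : Set G)) := by
  set N := normalizer (D : Set G)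
  have hDE : D ≤ E := hB ▸ le_normalClosure
  have hAN : A ≤ N := (le_centralizer_iff.1 hD).trans (centralizer_le_normalizer _)
  have hCN : centralizer (E : Set G) ≤ N :=
    (centralizer_anti hDE).trans (centralizer_le_normalizer _)
  have hN : N ≠ ⊤ := fun e => hg (by rw [e, normalCore_eq_self]; exact le_top)
  obtain ⟨g, -, hgN⟩ := SetLike.not_le_iff_exists.1 (mt top_le_iff.1 hN)
  obtain ⟨b, hb, hbN⟩ := SetLike.not_le_iff_exists.1 (not_cj_le hU hN hCN hAN hg hgN)
  obtain ⟨a, ha, haN⟩ := SetLike.not_le_iff_exists.1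
    (mt le_cj_iff.1 (not_cj_le hU hN hCN hAN hg (mt inv_mem_iff.1 hgN)))
  have hU1 : ∀ X, A ≤ X → centralizer (E : Set G) ≤ X → b ∈ X → X = ⊤ := fun X h1 h2 h3 =>
    by_contra fun e => hbN (hU X e h1 h2 h3)
  have hU2 : ∀ X, cj g A ≤ X → centralizer (E : Set G) ≤ X → a ∈ X → X = ⊤ := fun X h1 h2 h3 =>
    by_contra fun e => haN (le_cj_iff.2 (hU _ (mt cj_eq_top_iff.1 e) (cj_le_iff.1 h1)
      (by rw [le_cj_iff, cj_eq_of_normal]; exact h2)) h3)
  have hcen : ∀ e ∈ E, centralizer {e} = ⊤ → e = 1 := fun e he h =>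
    mem_bot.1 (hZ.le ⟨he, mem_center_iff.2 fun x =>
      mem_centralizer_singleton_iff.1 (h.ge (mem_top x))⟩)
  have hCe : ∀ e ∈ E, centralizer (E : Set G) ≤ centralizer {e} := fun e he =>
    centralizer_le (Set.singleton_subset_iff.2 he)
  have c1 : ∀ e ∈ E, e ∈ centralizer (A : Set G) → Commute b e → e = 1 := fun e he h1 h2 =>
    hcen e he (hU1 _ (fun x hx => mem_centralizer_singleton_iff.2 (h1 x hx)) (hCe e he)
      (mem_centralizer_singleton_iff.2 h2))
  have c2 : ∀ e ∈ E, e ∈ centralizer (cj g A : Set G) → Commute a e → e = 1 := fun e he h1 h2 =>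
    hcen e he (hU2 _ (fun x hx => mem_centralizer_singleton_iff.2 (h1 x hx)) (hCe e he)
      (mem_centralizer_singleton_iff.2 h2))
  have hq1 : ⁅E, A⁆ ≤ centralizer (A : Set G) := le_centralizer_of_commutator_eq_bot hq
  have hq2 : ⁅E, cj g A⁆ ≤ centralizer (cj g A : Set G) := by
    rw [centralizer_cj, ← cj_eq_of_normal g E, ← cj_commutator]; exact cj_mono g hq1
  have hS : E ≤ (E ⊓ centralizer (A : Set G)) ⊔ (E ⊓ centralizer (cj g A : Set G)) := by
    have h1 : ∀ X, ⁅E, X⁆ ≤ (E ⊓ centralizer (A : Set G)) ⊔ (E ⊓ centralizer (cj g A : Set G)) →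
        X ≤ normalizer (((E ⊓ centralizer (A : Set G)) ⊔ (E ⊓ centralizer (cj g A : Set G)) :
          Subgroup G) : Set G) := fun X hX =>
      le_normalizer_iff_commutator_le_left.2
        ((commutator_mono (sup_le inf_le_left inf_le_left) le_rfl).trans hX)
    have := normalizer_eq_top_iff.1 (hU1 _
      (h1 _ (le_sup_of_le_left (le_inf (commutator_le_left _ _) hq1)))
      ((centralizer_anti (sup_le inf_le_left inf_le_left)).trans (centralizer_le_normalizer _))
      (h1 _ (le_sup_of_le_right (le_inf (commutator_le_left _ _) hq2)) hb))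
    exact hB.ge.trans (normalClosure_le_normal (le_sup_of_le_left (le_inf hDE hD)))
  have hS' : ∀ e ∈ E, ∃ x ∈ E ⊓ centralizer (A : Set G), ∃ y ∈ E ⊓ centralizer (cj g A : Set G),
      x * y = e := fun e he => (CF.PLocal.mem_sup_of_le_normalizer
    (le_normalizer_of_isMulCommutative hE.1 inf_le_left inf_le_left)).1 (hS he)
  have d1 : ∀ e ∈ E, Commute a e → e ∈ centralizer (A : Set G) := fun e he hc => by
    obtain ⟨x, hx, y, hy, rfl⟩ := hS' e he
    have : Commute a y := by simpa using (show Commute a x from hx.2 a ha).inv_right.mul_right hc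
    rw [c2 y hy.1 hy.2 this, mul_one]
    exact hx.2
  have hf : ∀ v ∈ E, Commute (a * b) v → v = 1 := fun v hv hc => by
    have e : ⁅v, b⁆ = ⁅v, a⁻¹⁆ := by
      simp only [commutatorElement_def]
      calc _ = v * a⁻¹ * (a * b * v⁻¹) * b⁻¹ := by group
        _ = _ := by rw [hc.inv_right.eq]; group
    have h1 : ⁅v, b⁆ = 1 := c1 _ (commutator_le_left E _ (commutator_mem_commutator hv hb))
      (e ▸ hq1 (commutator_mem_commutator hv (inv_mem ha)))
      (hq2 (commutator_mem_commutator hv hb) b hb)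
    refine c1 v hv (d1 v hv ?_) (commutatorElement_eq_one_iff_commute.1 h1).symm
    simpa using (commutatorElement_eq_one_iff_commute.1 (e.symm.trans h1)).symm
  obtain ⟨W, ⟨w1, w2, w3, w4⟩, hmax⟩ := Set.exists_max_image {W : Subgroup G | W ≤ E ∧
    a ∈ normalizer (W : Set G) ∧ b ∈ normalizer (W : Set G) ∧ W ⊓ D = ⊥} (fun W => Nat.card W)
    (Set.toFinite _) ⟨⊥, bot_le, le_normalizer_of_normal (mem_top a),
      le_normalizer_of_normal (mem_top b), bot_inf_eq _⟩
  have hqz : ∀ {X : Subgroup G} {x : G}, x ∈ X → ⁅E, X⁆ ≤ centralizer (X : Set G) →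
      ⁅⁅E, zpowers x⁆, zpowers x⁆ = ⊥ := fun hx h => commutator_eq_bot_iff_le_centralizer.2
    (((commutator_mono le_rfl (zpowers_le.2 hx)).trans h).trans (centralizer_anti (zpowers_le.2 hx)))
  obtain ⟨T, W', h1, h2, h3, h4, h5, h6, h7, h8⟩ := lem2 hp2 hE w1
    (fun e => hD0 (le_bot_iff.1 ((le_inf (hDE.trans e) le_rfl).trans w4.le)))
    (le_normalizer_of_normal (mem_top a)) (le_normalizer_of_normal (mem_top b)) w2 w3 (hqz ha hq1)
    (hqz hb hq2) (hA.to_le (zpowers_le.2 ha)) hf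
  have hT : normalizer (T : Set G) ≤ N := by
    have h9 : E ⊓ centralizer (T : Set G) ≤ centralizer (A : Set G) := fun x hx =>
      d1 x hx.1 (hx.2 a h2)
    refine le_trans (le_normalizer_inf le_normalizer_of_normal
      (CF.PLocal.normalizer_le_normalizer_centralizer T)) (hU _ (fun e => ?_)
        ((le_centralizer_iff.1 h9).trans (centralizer_le_normalizer _))
        ((centralizer_anti inf_le_left).trans (centralizer_le_normalizer _)))
    have hn := normalizer_eq_top_iff.1 e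
    refine inf_cent_ne_bot (isEA_isPGroup hE) h1 le_normalizer_of_normal
      (fun e => hD0 (le_bot_iff.1 (hDE.trans e.le))) (eq_bot_iff.2 fun x hx => c2 x hx.1 ?_ ?_)
    · rw [centralizer_cj, mem_cj]
      exact h9 (hn.conj_mem' x hx g)
    · exact h9 hx a ha
  refine ⟨fun l hl => ?_, involves_mono h8 hT⟩
  have h9 : W' ⊓ D ≠ ⊥ := fun e =>
    (CF.PLocal.card_lt_of_lt h4).not_ge (hmax W' ⟨h3, h5, h6, e⟩)
  obtain ⟨d, hd, hd1⟩ := (W' ⊓ D).bot_or_exists_ne_one.resolve_left h9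
  obtain ⟨h, a1, a2⟩ := h7 d hd.1 (hD hd.2 a ha) l hl
  exact ⟨d, hd.2, hd1, h, hT a1, mul_inv_eq_one.1 (mem_bot.1 (w4.le (mem_inf.2 ⟨a2,
    mul_mem (conj_mem_of_mem_normalizer (hT a1) hd.2) (inv_mem (D.pow_mem hd.2 l))⟩)))⟩

theorem nakayama {Y B Q : Subgroup G} (hQ : IsPGroup p Q) (hBQ : B ≤ Q) (hYB : Y ≤ B)
    (hY : Q ≤ normalizer (Y : Set G)) (hB : Q ≤ normalizer (B : Set G)) (h : B ≤ Y ⊔ ⁅B, Q⁆) :
    B ≤ Y := by
  suffices ∀ W : Subgroup G, W ≤ Q → Q ≤ normalizer (W : Set G) → B ≤ Y ⊔ W → B ≤ Y from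
    this B hBQ hB le_sup_right
  intro W
  induction W using WellFoundedLT.induction with
  | ind W ih => ?_
  intro h1 h2 h3
  by_cases h0 : W = ⊥
  · simpa [h0] using h3
  have h4 := le_normalizer_commutator h2 le_normalizer
  have h5 := le_normalizer_sup hY h4
  refine ih _ (commutator_lt_of_pgroup (hQ.to_le h1) hQ h2 h0)
    ((commutator_le_left_of_le_normalizer h2).trans h1) h4 (h.trans (sup_le le_sup_left ?_))
  exact (commutator_mono h3 le_rfl).trans (commutator_sup_le ((hYB.trans hBQ).trans h5)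
    (h1.trans h5) (le_sup_of_le_left (commutator_le_left_of_le_normalizer hY)) le_sup_right)

/-- Some nontrivial element of `D` is conjugate to its `l`-th power. -/
def Eig (l : ℕ) (D : Subgroup G) : Prop := ∃ c ∈ D, c ≠ 1 ∧ ∃ h : G, h * c * h⁻¹ = c ^ l

/-- The main local lemma. -/
theorem lemF (hp2 : p ≠ 2) {Q B D A : Subgroup G} [Q.Normal] (hQ : IsPGroup p Q) (hBQ : B ≤ Q)
    (hA : IsPGroup p A) (hq : ⁅⁅B, A⁆, A⁆ = ⊥) (hD : D ≤ centralizer (A : Set G))
    (hB : normalClosure (D : Set G) = B) (hDc : IsMulCommutative D)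
    (hQN : Q ≤ normalizer (D : Set G))
    (hU : ∀ X ≠ ⊤, A ≤ X → Q ≤ X → X ≤ normalizer (D : Set G))
    (hg : ¬ A ≤ (normalizer (D : Set G)).normalCore) :
    (∀ l : ℕ, ¬ p ∣ l → Eig l D) ∧ Involves (fOver (ZMod p)) (normalizer (D : Set G)) := by
  have hBn : B.Normal := hB ▸ normalClosure_normal
  have hDB : D ≤ B := hB ▸ le_normalClosure
  have hN : normalizer (D : Set G) ≠ ⊤ := fun e =>
    hg (by rw [e, normalCore_eq_self]; exact le_top)
  obtain ⟨W, ⟨w1, w2, w3⟩, hmax⟩ := Set.exists_max_image {W : Subgroup G | W.Normal ∧ W ≤ B ∧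
    ¬ B ≤ D ⊔ W} (fun W => Nat.card W) (Set.toFinite _) ⟨⊥, inferInstance, bot_le, fun e => hN (by
      rw [sup_bot_eq] at e
      rw [le_antisymm hDB e]; exact normalizer_eq_top _)⟩
  have hm : ∀ X : Subgroup G, X.Normal → X ≤ B → ¬ X ≤ W → B ≤ (D ⊔ W) ⊔ X := fun X h1 h2 h3 => by
    by_contra e
    rw [sup_assoc] at e
    exact (CF.PLocal.card_lt_of_lt (left_lt_sup.2 h3)).not_ge
      (hmax _ ⟨inferInstance, sup_le w2 h2, e⟩)
  have hBQW : ⁅B, Q⁆ ≤ W := by_contra fun e => w3 (nakayama hQ hBQ (sup_le hDB w2)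
    (le_normalizer_sup hQN le_normalizer_of_normal) le_normalizer_of_normal
    (hm _ inferInstance (commutator_le_left _ _) e))
  have hΦ : (frattini B).map B.subtype ≤ W := by_contra fun e => w3
    (CF.Solv.eq_of_sup_map_frattini_eq le_rfl (le_antisymm
      (sup_le (sup_le hDB w2) (map_subtype_le _)) (hm _ inferInstance (map_subtype_le _) e))).ge
  let f := QuotientGroup.mk' W
  have hs : Function.Surjective f := QuotientGroup.mk'_surjective W
  have hk : ∀ x, f x = 1 ↔ x ∈ W := fun x => QuotientGroup.eq_one_iff x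
  have hEn : (B.map f).Normal := hBn.map f hs
  have hQC : Q ≤ (centralizer (B.map f : Set (G ⧸ W))).comap f := by
    rw [← map_le_iff_le_comap, le_centralizer_iff, ← commutator_eq_bot_iff_le_centralizer,
      ← map_commutator, CF.Solv.map_mk'_eq_bot_iff]
    exact hBQW
  have hDA : D.map f ≤ centralizer (A.map f : Set (G ⧸ W)) := by
    rw [← commutator_eq_bot_iff_le_centralizer, ← map_commutator,
      commutator_eq_bot_iff_le_centralizer.2 hD, Subgroup.map_bot]
  have hU' : ∀ X ≠ ⊤, A.map f ≤ X → centralizer (B.map f : Set (G ⧸ W)) ≤ X →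
      X.comap f ≤ normalizer (D : Set G) := fun X h1 h2 h3 =>
    hU _ (fun e => h1 (by rw [← map_comap_eq_self_of_surjective hs X, e, map_top_of_surjective f hs]))
      (map_le_iff_le_comap.1 h2) (hQC.trans (comap_mono h3))
  have hcl : normalClosure (D.map f : Set (G ⧸ W)) = B.map f := by
    rw [← hB, map_normalClosure _ _ hs]; rfl
  have hN' : (normalizer (D.map f : Set (G ⧸ W))).comap f ≤ normalizer (D : Set G) := by
    refine hU' _ (fun e => w3 ?_) ((le_centralizer_iff.1 hDA).trans (centralizer_le_normalizer _))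
      ((centralizer_anti (map_mono hDB)).trans (centralizer_le_normalizer _))
    have := normalizer_eq_top_iff.1 e
    rw [normalClosure_eq_self] at hcl
    rw [← CF.Solv.comap_map_mk', hcl]
    exact le_comap_map _ _
  have hg' : ¬ A.map f ≤ (normalizer (D.map f : Set (G ⧸ W))).normalCore := fun e =>
    hg ((map_le_iff_le_comap.1 e).trans (normal_le_normalCore.2
      ((comap_mono (normalCore_le _)).trans hN')))
  obtain ⟨h1, h2⟩ := lem0 hp2 (E := B.map f) (D := D.map f) (A := A.map f)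
    ⟨le_centralizer_iff_isMulCommutative.1 (map_le_iff_le_comap.2 (hBQ.trans hQC)), by
      rintro _ ⟨x, hx, rfl⟩
      rw [← map_pow, hk]
      exact hΦ (CF.Solv.pow_mem_map_frattini (hQ.to_le hBQ) hx)⟩ (hA.map f)
    (by rw [← map_commutator, ← map_commutator, hq, Subgroup.map_bot]) hDA hcl
    (fun e => w3 (le_sup_of_le_right (hB.ge.trans
      (normalClosure_le_normal ((CF.Solv.map_mk'_eq_bot_iff _ _).1 e)))))
    (by
      by_contra e
      have h3 : (B.map f ⊓ center (G ⧸ W)).Normal := ⟨fun x hx y => by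
        rw [mem_center_iff.1 (mem_inf.1 hx).2 y]; simpa using hx⟩
      have h4 := map_mono (f := f) (hm ((B.map f ⊓ center (G ⧸ W)).comap f) inferInstance
        ((comap_mono inf_le_left).trans (by rw [CF.Solv.comap_map_mk']; exact sup_le le_rfl w2))
        (fun e' => e (by
          rw [← map_comap_eq_self_of_surjective hs (B.map f ⊓ center (G ⧸ W))]
          exact (CF.Solv.map_mk'_eq_bot_iff _ _).2 e')))
      rw [Subgroup.map_sup, Subgroup.map_sup, map_comap_eq_self_of_surjective hs,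
        (CF.Solv.map_mk'_eq_bot_iff _ _).2 le_rfl] at h4
      refine hg' (le_trans ?_ (normal_le_normalCore.2
        ((centralizer_anti (map_mono hDB)).trans (centralizer_le_normalizer _))))
      exact le_centralizer_iff.1 (h4.trans (sup_le (sup_le hDA bot_le)
        (inf_le_right.trans (center_le_centralizer _)))))
    (fun X a1 a2 a3 => by
      rw [← map_comap_eq_self_of_surjective hs X]
      exact (map_mono (hU' X a1 a2 a3)).trans (le_normalizer_map f)) hg'
  refine ⟨fun l hl => ?_, involves_mono (involves_comap hs h2) hN'⟩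
  obtain ⟨_, ⟨d, hd, rfl⟩, hd1, h, a1, a2⟩ := h1 l hl
  obtain ⟨h, rfl⟩ := hs h
  obtain ⟨c, c1, c2, c3⟩ := ev (W := D ⊓ W) (l := l) hDc inf_le_left
    (le_normalizer_inf le_rfl le_normalizer_of_normal (hN' a1)) hd (fun e => hd1 ((hk d).2 e.2))
    (mem_inf.2 ⟨mul_mem (conj_mem_of_mem_normalizer (hN' a1) hd) (inv_mem (D.pow_mem hd l)),
      (hk _).1 (by rw [map_mul, map_mul, map_mul, map_inv, map_inv, map_pow, a2, mul_inv_cancel])⟩)
  exact ⟨c, c1, c2, h, c3⟩

/-- The main local lemma inside a subgroup. -/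
theorem lemF' (hp2 : p ≠ 2) {H Q D A : Subgroup G} (hQH : Q ≤ H) (hH : H ≤ normalizer (Q : Set G))
    (hAH : A ≤ H) (hQ : IsPGroup p Q) (hDQ : D ≤ Q) (hA : IsPGroup p A) (hq : ⁅⁅Q, A⁆, A⁆ = ⊥)
    (hD : D ≤ centralizer (A : Set G)) (hDc : IsMulCommutative D) (hQN : Q ≤ normalizer (D : Set G))
    (hU : ∀ X, A ≤ X → Q ≤ X → X < H → X ≤ normalizer (D : Set G))
    (hg : ∀ K, A ≤ K → Q ≤ K → K ≤ H → H ≤ normalizer (K : Set G) → ¬ K ≤ normalizer (D : Set G))
    {l : ℕ} (hl : ¬ p ∣ l) : Eig l D := by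
  have hn : (Q.subgroupOf H).Normal := normal_subgroupOf_of_le_normalizer hH
  have hDH := hDQ.trans hQH
  have hB : normalClosure (D.subgroupOf H : Set H) ≤ Q.subgroupOf H :=
    normalClosure_le_normal (comap_mono hDQ)
  have hN : normalizer (D.subgroupOf H : Set H) = (normalizer (D : Set G)).subgroupOf H :=
    (subgroupOf_normalizer_eq hDH).symm
  obtain ⟨c, c1, c2, h, c3⟩ := (lemF hp2 (A := A.subgroupOf H) (isPGroup_subgroupOf hQ H) hB
    (isPGroup_subgroupOf hA H)
    (le_bot_iff.1 ((commutator_mono (commutator_mono hB le_rfl) le_rfl).trans (le_of_eq (by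
      apply map_injective H.subtype_injective
      rw [map_commutator, map_commutator, map_subgroupOf_eq_of_le hQH, map_subgroupOf_eq_of_le hAH,
        hq, Subgroup.map_bot]))))
    (fun x hx y hy => Subtype.ext (hD hx y hy)) rfl
    (isEA_zero_iff.1 (isEA_subgroupOf (isEA_zero_iff.2 hDc) H)) (by rw [hN]; exact comap_mono hQN)
    (fun X h1 h2 h3 => by
      rw [hN]
      refine map_le_iff_le_comap.1 (hU _ ?_ ?_ (lt_of_le_of_ne (map_subtype_le X) fun e => h1 ?_))
      · rw [← map_subgroupOf_eq_of_le hAH]; exact map_mono h2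
      · rw [← map_subgroupOf_eq_of_le hQH]; exact map_mono h3
      · exact map_injective H.subtype_injective (by rw [e, ← MonoidHom.range_eq_map, range_subtype]))
    (fun e => hg (((normalizer (D.subgroupOf H : Set H)).normalCore ⊔ Q.subgroupOf H).map H.subtype)
      (by rw [← map_subgroupOf_eq_of_le hAH]; exact map_mono (le_sup_of_le_left e))
      (by conv_lhs => rw [← map_subgroupOf_eq_of_le hQH]
          exact map_mono le_sup_right) (map_subtype_le _)
      (fun x hx => le_normalizer_map _ ⟨⟨x, hx⟩, le_normalizer_of_normal (mem_top _), rfl⟩)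
      (map_le_iff_le_comap.2 (sup_le ((normalCore_le _).trans hN.le) (comap_mono hQN))))).1 l hl
  exact ⟨c, c1, fun e => c2 (Subtype.ext e), h, congrArg Subtype.val c3⟩

end CF.ZF
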