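/-
Subgroups of `ZJ(S)` which are not strongly closed: the reductions.
-/
import Cfsg.Agent.PLocal.ZFb

set_option autoImplicit false

namespace CF.ZF

open Subgroup Cfsg CF.Transfer CF.PLocal
open scoped commutatorElement

local notation "𝐉" => thompsonSubgroupOf 0
local notation "𝐙" => centerThompsonOf 0
local notation "𝐍(" X ")" => normalizer (SetLike.coe X)
local notation "𝐂(" X ")" => centralizer (SetLike.coe X)

variable {G : Type*} [Group G] {p : ℕ}

theorem cj_J (g : G) (T : Subgroup G) : 𝐉 (cj g T) = cj g (𝐉 T) := thompson_map_equiv _ _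

theorem cj_Z (g : G) (T : Subgroup G) : 𝐙 (cj g T) = cj g (𝐙 T) :=
  centerThompson_map (MulAut.conj g).injective.injOn

theorem norm_le_Z (T : Subgroup G) : 𝐍(T) ≤ 𝐍(𝐙 T) :=
  (normalizer_le_normalizer_thompson 0 T).trans (normalizer_thompson_le 0 T)

/-- `E` is strongly closed in `T` with respect to `M`. -/
def SCin (E T M : Subgroup G) : Prop := ∀ x ∈ E, ∀ m ∈ M, m * x * m⁻¹ ∈ T → m * x * m⁻¹ ∈ E

theorem sc_of_normal {D S : Subgroup G} (hn : D.Normal) (h : D ≤ S) : IsStronglyClosed D S :=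
  ⟨h, fun x hx g _ => hn.conj_mem x hx g⟩

variable [Finite G]

theorem mem_Z {T : Subgroup G} {x : G} (h1 : x ∈ T) (h2 : x ∈ 𝐂(𝐉 T)) : x ∈ 𝐙 T :=
  ⟨mem_thompson_of_centralizer h1 h2 (pow_zero x), h2⟩

theorem wc {S : Subgroup G} {u : G} (h : cj u (𝐉 S) ≤ S) : u ∈ 𝐍(𝐉 S) :=
  mem_normalizer_of_cj_le (cj_le_iff.2 (thompson_le_iff.2 fun A hA => cj_le_iff.1 (le_thompson
    (mem_maxAb_of_card_le hA ((cj_mono u (le_thompson hA)).trans h) (isEA_map hA.2.1 _)
      (card_cj u A).ge))))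

theorem le_Z {S T A E : Subgroup G} {g : G} (hA : A ∈ maxAb 0 S) (hAT : A ≤ T) (hT : T ≤ cj g S)
    (hE : E ≤ 𝐙 S) (hET : cj g E ≤ T) : cj g E ≤ 𝐙 T := fun x hx => by
  have h1 : cj g A ∈ maxAb 0 (cj g S) := map_mem_maxAb (MulAut.conj g).injective.injOn hA
  have h2 := mem_maxAb_of_card_le h1 (hAT.trans hT) hA.2.1 (card_cj g A).le
  refine mem_Z (hET hx) (centralizer_anti (thompson_le_thompson_of_le h2 hAT hT) ?_)
  exact centerThompson_le_centralizer 0 _ (by rw [cj_Z]; exact cj_mono g hE hx)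

variable [hp : Fact p.Prime]

theorem burn {S : Subgroup G} (hS : IsSylowIn p S ⊤) {x y n : G} (hx : x ∈ 𝐂(𝐉 S))
    (hy : y ∈ 𝐂(𝐉 S)) (h : n * y * n⁻¹ = x) : ∃ m ∈ 𝐍(𝐉 S), m * y * m⁻¹ = x := by
  have hJ := hS.isPGroup.to_le (thompson_le 0 S)
  obtain ⟨T, h1, hT⟩ := exists_isSylowIn_ge (H := centralizer {x}) hJ
    fun a ha => mem_centralizer_singleton_iff.2 (hx a ha)
  obtain ⟨c, hc, h2⟩ := hT.exists_cj_le (isPGroup_cj hJ n) (cj_le_iff_forall.2 fun a ha => by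
    rw [mem_centralizer_singleton_iff, ← h]
    calc _ = n * (a * y) * n⁻¹ := by group
      _ = _ := by rw [hy a ha]; group)
  obtain ⟨k, -, h3⟩ := hS.exists_cj_le hT.isPGroup le_top
  have h4 := wc ((cj_mono k h1).trans h3)
  have h5 := wc (u := k * (c * n)) (by rw [cj_mul, cj_mul]; exact (cj_mono k h2).trans h3)
  refine ⟨c * n, by simpa using mul_mem (inv_mem h4) h5, ?_⟩
  calc _ = c * (n * y * n⁻¹) * c⁻¹ := by group
    _ = _ := by rw [h, mem_centralizer_singleton_iff.1 hc, mul_inv_cancel_right]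

theorem exists_le_cj {S T : Subgroup G} (hS : IsSylowIn p S ⊤) (hT : IsPGroup p T) :
    ∃ g, T ≤ cj g S :=
  let ⟨g, _, h⟩ := hS.exists_cj_le hT le_top
  ⟨g⁻¹, cj_le_iff.1 h⟩

theorem sylow_cj {S : Subgroup G} (hS : IsSylowIn p S ⊤) (g : G) : IsSylowIn p (cj g S) ⊤ :=
  hS.cj_of_mem (mem_top g)

theorem exists_grow {S T L : Subgroup G} (hS : IsPGroup p S) (h : T < S) (hL : 𝐍(T) ≤ L) :
    ∃ T₁, IsSylowIn p T₁ L ∧ S ⊓ 𝐍(T) ≤ T₁ ∧ T < S ⊓ 𝐍(T) :=
  let ⟨T₁, h1, h2⟩ := exists_isSylowIn_ge hS.to_inf_left (inf_le_right.trans hL)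
  ⟨T₁, h2, h1, lt_inf_normalizer_of_lt hS h⟩

/-- All proper subgroups containing `A` and `B` normalize `Y`. -/
theorem unique_max {S A B Y : Subgroup G} [hB : B.Normal] (hS : IsSylowIn p S ⊤)
    (hA : A ∈ maxAb 0 S) (hBS : B ≤ S) (hY : Y ≤ 𝐙 S) (hYB : Y ≤ B) (hYn : 𝐍(𝐉 S) ≤ 𝐍(Y))
    (hg : ∀ T : Subgroup G, IsPGroup p T → A ⊔ B ≤ T → ¬ (𝐙 T).Normal)
    (hM : ∀ M ≠ ⊤, ∀ T, IsSylowIn p T M → A ⊔ B ≤ T → ∀ g, cj g Y ≤ 𝐙 T →
      M ⊓ 𝐍(𝐉 T) ≤ 𝐍(cj g Y) → SCin (cj g Y) T M) :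
    ∀ X ≠ ⊤, A ≤ X → B ≤ X → X ≤ 𝐍(Y) := by
  have hYB' : ∀ g, cj g Y ≤ B := fun g => (cj_mono g hYB).trans (cj_eq_of_normal g B).le
  have step : ∀ X ≠ ⊤, ∀ T, IsSylowIn p T X → A ⊔ B ≤ T → ∀ k, T ≤ cj k S →
      𝐍(𝐉 T) ≤ 𝐍(cj k Y) → X ≤ 𝐍(cj k Y) := fun X hX T hT h1 k h2 h3 m hm =>
    CF.PLocal.mem_normalizer_of_conj_mem fun x hx => hM X hX T hT h1 k
      (le_Z hA (le_sup_left.trans h1) h2 hY ((hYB' k).trans (le_sup_right.trans h1)))
      (inf_le_right.trans h3) x hx m hm (h1 (mem_sup_right (hB.conj_mem x (hYB' k hx) m)))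
  have R : ∀ T, A ⊔ B ≤ T → ∀ g, T ≤ cj g S →
      𝐍(𝐉 T) ≤ 𝐍(cj g Y) ∧ ∀ g', T ≤ cj g' S → cj g' Y = cj g Y := by
    intro T
    induction T using WellFoundedGT.induction with
    | ind T ih => ?_
    intro h1 g h2
    rcases h2.eq_or_lt with rfl | hlt
    · refine ⟨by rw [cj_J, normalizer_cj, normalizer_cj]; exact cj_mono g hYn, fun g' h3 => ?_⟩
      rw [cj_eq_iff, cj_cj, eq_comm, ← mem_normalizer_iff_cj]
      refine hYn (normalizer_le_normalizer_thompson 0 S (mem_normalizer_of_cj_le ?_))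
      rw [cj_mul]; exact le_cj_iff.1 h3
    have hT := (sylow_cj hS g).isPGroup.to_le h2
    have hne : 𝐍(𝐉 T) ≠ ⊤ := fun e => hg T hT h1
      (normalizer_eq_top_iff.1 (top_le_iff.1 (e.ge.trans (normalizer_thompson_le 0 T))))
    obtain ⟨T₁, hT₁, a1, a2⟩ := exists_grow (sylow_cj hS g).isPGroup hlt
      (normalizer_le_normalizer_thompson 0 T)
    obtain ⟨k, hk⟩ := exists_le_cj hS hT₁.isPGroup
    have a3 := (ih _ a2 (h1.trans a2.le) g inf_le_left).2 k (a1.trans hk)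
    have a4 := step _ hne T₁ hT₁ (h1.trans (a2.le.trans a1)) k hk
      (ih _ (a2.trans_le a1) (h1.trans (a2.le.trans a1)) k hk).1
    refine ⟨a3 ▸ a4, fun g' h3 => ?_⟩
    have hlt' : T < cj g' S := lt_of_le_of_ne h3 fun e => by
      have := CF.PLocal.card_lt_of_lt hlt
      rw [e, card_cj, card_cj] at this
      exact lt_irrefl _ this
    have b2 := lt_inf_normalizer_of_lt (sylow_cj hS g').isPGroup hlt'
    obtain ⟨m, hm, b3⟩ := hT₁.exists_cj_le (Q := cj g' S ⊓ 𝐍(T))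
      (sylow_cj hS g').isPGroup.to_inf_left
      (inf_le_right.trans (normalizer_le_normalizer_thompson 0 T))
    rw [← (ih _ b2 (h1.trans b2.le) g' inf_le_left).2 (m⁻¹ * k)
      (by rw [cj_mul]; exact cj_le_iff.1 (b3.trans hk)), cj_mul,
      cj_eq_of_mem_normalizer (a4 (inv_mem hm)), a3]
  intro X hX h1 h2
  have h3 : A ⊔ B ≤ S := sup_le hA.1 hBS
  obtain ⟨T, h4, hT⟩ := exists_isSylowIn_ge (hS.isPGroup.to_le h3) (sup_le h1 h2)
  obtain ⟨k, hk⟩ := exists_le_cj hS hT.isPGroup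
  have h5 := (R _ le_rfl 1 (by rwa [cj_one])).2 k (h4.trans hk)
  rw [cj_one] at h5
  exact h5 ▸ step X hX T hT h4 k hk (R T h4 k hk).1

/-- The `ZJ` argument. -/
theorem dq (hp2 : p ≠ 2) {S D : Subgroup G} (hS : IsSylowIn p S ⊤) (hD : D ≤ 𝐙 S)
    (hDn : 𝐍(𝐉 S) ≤ 𝐍(D))
    (hM : ∀ M ≠ ⊤, ∀ T, IsSylowIn p T M →
      (∀ T' : Subgroup G, IsPGroup p T' → T ≤ T' → ¬ (𝐙 T').Normal) →
      ∀ E ≤ 𝐙 T, (∃ g, E ≤ cj g D) → M ⊓ 𝐍(𝐉 T) ≤ 𝐍(E) → SCin E T M)
    (hno : ∀ N ≠ ⊤, S ≤ N → (∀ l : ℕ, ¬ p ∣ l → Eig l D) → ¬ Involves (fOver (ZMod p)) N)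
    (B : Subgroup G) : B.Normal → IsPGroup p B → (D ⊓ B).Normal := by
  induction B using WellFoundedLT.induction with
  | ind B ih => ?_
  intro hBn hB
  by_contra hcon
  have hZP : D ≤ S := hD.trans (centerThompson_le 0 S)
  have hPZ : S ≤ 𝐍(D) := (le_normalizer.trans (normalizer_le_normalizer_thompson 0 S)).trans hDn
  have hBP : B ≤ S := hS.le_of_normalized hB le_top le_normalizer_of_normal
  have hZc : IsMulCommutative D := isMulCommutative_of_le (centerThompson_isMulCommutative 0 S) hD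
  have hZA : ∀ A ∈ maxAb 0 S, D ≤ 𝐂(A) := fun A hA =>
    (hD.trans (centerThompson_le_centralizer 0 S)).trans (centralizer_anti (le_thompson hA))
  set Y := D ⊓ B with hY
  have hB0 : normalClosure (Y : Set G) = B := by
    by_contra hne
    have h1 : normalClosure (Y : Set G) < B :=
      lt_of_le_of_ne (normalClosure_le_normal (fun _ h => h.2)) hne
    have h2 := ih _ h1 inferInstance (hB.to_le h1.le)
    apply hcon
    rwa [show D ⊓ normalClosure (Y : Set G) = Y from le_antisymm (inf_le_inf_left D h1.le)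
      (le_inf inf_le_left le_normalClosure)] at h2
  have hBne : B ≠ ⊥ := by
    rintro rfl
    apply hcon
    rw [hY, inf_bot_eq]
    infer_instance
  set Φ := (frattini B).map B.subtype with hΦ
  have hΦB : Φ < B := CF.Solv.map_frattini_lt hBne
  have hW := ih _ hΦB inferInstance (hB.to_le hΦB.le)
  have hBB : ⁅B, B⁆ ≤ D ⊓ Φ := by
    refine (commutator_mono hB0.ge le_rfl).trans
      (commutator_normalClosure_le (Y := Y) (W := D ⊓ Φ) (le_inf ?_ ?_))
    · exact (commutator_mono inf_le_left hBP).trans (commutator_le_left_of_le_normalizer hPZ)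
    · exact (commutator_mono inf_le_right le_rfl).trans (CF.Solv.commutator_le_map_frattini hB)
  set L := (𝐍(Y)).normalCore with hL
  have hLY : L ≤ 𝐍(Y) := normalCore_le _
  have hYn : 𝐍(𝐉 S) ≤ 𝐍(Y) := le_normalizer_inf hDn le_normalizer_of_normal
  have hPY : S ≤ 𝐍(Y) := le_normalizer_inf hPZ le_normalizer_of_normal
  have hPL : IsSylowIn p (S ⊓ L) L := hS.inf_of_normalized le_top le_normalizer_of_normal
  have hJL : ¬ 𝐉 S ≤ L := by
    intro hJ
    apply hcon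
    rw [← normalizer_eq_top_iff, eq_top_iff]
    intro g _
    obtain ⟨l, hl, y, hy, rfl⟩ := hPL.frattini (le_normalizer_of_normal (mem_top g))
    refine mul_mem (hLY hl) (hYn ?_)
    rw [← thompson_eq_of_le (le_inf (thompson_le 0 S) hJ) inf_le_left]
    exact normalizer_le_normalizer_thompson 0 _ hy
  have hAL : ∀ A ∈ maxAb 0 S, B ≤ 𝐍(A) → A ≤ L := by
    intro A hA h1
    by_contra h2
    have hAc := le_centralizer_iff_isMulCommutative.2 hA.2.1.1
    have hg : ∀ T : Subgroup G, IsPGroup p T → A ⊔ B ≤ T → ¬ (𝐙 T).Normal := fun T hT h3 h4 => by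
      obtain ⟨g, hg⟩ := exists_le_cj hS hT
      have h5 := le_Z hA (le_sup_left.trans h3) hg (inf_le_left.trans hD : Y ≤ _)
        (((cj_mono g inf_le_right).trans (cj_eq_of_normal g B).le).trans (le_sup_right.trans h3))
      rw [cj_le_iff, cj_eq_of_normal] at h5
      have h6 : cj g A ∈ maxAb 0 (cj g S) := map_mem_maxAb (MulAut.conj g).injective.injOn hA
      have h7 := mem_maxAb_of_le (mem_maxAb_of_card_le h6 (le_sup_left.trans (h3.trans hg)) hA.2.1
        (card_cj g A).le) (le_sup_left.trans h3) hg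
      refine h2 (le_trans (le_centralizer_iff.1 ?_) (normal_le_normalCore.2
        ((centralizer_anti (inf_le_right : Y ≤ B)).trans (centralizer_le_normalizer _))))
      exact hB0.ge.trans ((normalClosure_le_normal h5).trans
        ((centerThompson_le_centralizer 0 T).trans (centralizer_anti (le_thompson h7))))
    obtain ⟨h3, h4⟩ := lemF hp2 hB le_rfl (hS.isPGroup.to_le hA.1)
      (commutator_eq_bot_iff_le_centralizer.2
        ((le_normalizer_iff_commutator_le_right.1 h1).trans hAc)) (inf_le_left.trans (hZA A hA)) hB0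
      (isMulCommutative_of_le hZc inf_le_left) (hBP.trans hPY)
      (unique_max hS hA hBP (inf_le_left.trans hD) inf_le_right hYn hg
        fun M a1 T a2 a3 g a4 a5 => hM M a1 T a2 (fun T' b1 b2 => hg T' b1 (a3.trans b2)) _ a4
          ⟨g, cj_mono g inf_le_left⟩ a5) h2
    refine hno _ (fun e => hcon (normalizer_eq_top_iff.1 e)) hPY (fun l hl => ?_) h4
    obtain ⟨c, c1, c2⟩ := h3 l hl
    exact ⟨c, c1.1, c2⟩
  have hder : ∀ A ∈ maxAb 0 S, ⁅B, B⁆ ≤ A := fun A hA =>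
    le_of_le_centralizer_maxAb hA ((commutator_le_self B).trans hBP)
      ((hBB.trans inf_le_left).trans (hZA A hA)) (fun b _ => pow_zero b)
  rw [thompson_le_iff] at hJL
  push Not at hJL
  obtain ⟨A₁, ⟨hA₁, hA₁L⟩, hmax⟩ := Set.exists_max_image {A | A ∈ maxAb 0 S ∧ ¬ A ≤ L}
    (fun A => Nat.card (A ⊓ B : Subgroup G)) (Set.toFinite _) hJL
  have h1 : ¬ B ≤ 𝐍(A₁) := fun h => hA₁L (hAL A₁ hA₁ h)
  obtain ⟨A', hA', -, h2, h3⟩ := glauberman_replacement (n := 0) (by simp) hS.isPGroup le_rfl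
    le_normalizer hBP le_normalizer_of_normal (Or.inl (eq_one_of_sq_of_isPGroup hp2 hB)) hA₁
    (hder A₁ hA₁) h1
  have hA'L : A' ≤ L := by
    by_contra h
    exact (CF.PLocal.card_lt_of_lt h2).not_ge (hmax A' ⟨hA', h⟩)
  have hJ₁ := thompson_le_thompson_of_le hA' (le_inf hA'.1 hA'L) inf_le_left
  have hBJ : B ≤ 𝐂(𝐉 (S ⊓ L)) := by
    rw [← hB0]
    refine le_of_conj_le fun g z hz => ?_
    obtain ⟨y, hy, l, hl, rfl⟩ := hPL.frattini' (le_normalizer_of_normal (mem_top g))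
    have h4 : l * z * l⁻¹ ∈ 𝐂(𝐉 (S ⊓ L)) :=
      centralizer_anti hJ₁ (centerThompson_le_centralizer 0 S
        (hD (conj_mem_of_mem_normalizer (hLY hl) hz).1))
    have := conj_mem_of_mem_normalizer (CF.PLocal.normalizer_le_normalizer_centralizer _
      (normalizer_le_normalizer_thompson 0 _ hy)) h4
    simpa [mul_assoc] using this
  refine h1 (le_trans ?_ h3)
  exact le_of_le_centralizer_maxAb hA' hBP (hBJ.trans (centralizer_anti
    (le_thompson (mem_maxAb_of_le hA' (le_inf hA'.1 hA'L) inf_le_left)))) fun b _ => pow_zero b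

/-- The case of a nontrivial strongly closed subgroup in `D`. -/
theorem beta {S D : Subgroup G} (hS : IsSylowIn p S ⊤) (hD : D ≤ 𝐙 S) (hDn : 𝐍(𝐉 S) ≤ 𝐍(D))
    (hloc : ∀ M ≠ ⊤, S ≤ M → SCin D S M)
    (hdq : ∀ B : Subgroup G, B.Normal → IsPGroup p B → (D ⊓ B).Normal)
    (hquot : ∀ (K : Subgroup G) [K.Normal], K ≠ ⊥ → K ≤ D →
      ¬ (𝐙 (S.map (QuotientGroup.mk' K))).Normal → ∀ E ≤ 𝐙 (S.map (QuotientGroup.mk' K)),
        E ≤ D.map (QuotientGroup.mk' K) → 𝐍(𝐉 (S.map (QuotientGroup.mk' K))) ≤ 𝐍(E) →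
          IsStronglyClosed E (S.map (QuotientGroup.mk' K)))
    {K₀ : Subgroup G} (h1 : K₀ ≤ D) (h2 : K₀ ≠ ⊥) (h3 : IsStronglyClosed K₀ S) :
    IsStronglyClosed D S := by
  have hDS : D ≤ S := hD.trans (centerThompson_le 0 S)
  have hSD : S ≤ 𝐍(D) := (le_normalizer.trans (normalizer_le_normalizer_thompson 0 S)).trans hDn
  have hDc := isMulCommutative_of_le (centerThompson_isMulCommutative 0 S) hD
  obtain ⟨K, ⟨k1, k2⟩, hmax⟩ := Set.exists_max_image {K | K ≤ D ∧ IsStronglyClosed K S}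
    (fun K => Nat.card K) (Set.toFinite _) ⟨K₀, h1, h3⟩
  have k0 : K ≠ ⊥ := by
    rintro rfl
    exact h2 ((card_le_one_iff_eq_bot _).1 ((hmax K₀ ⟨h1, h3⟩).trans card_bot.le))
  by_cases hN : 𝐍(K) = ⊤
  swap
  · refine ⟨hDS, fun x hx g hg => ?_⟩
    obtain ⟨n, hn, e⟩ := mulRel_iff.1 (ctrlIn_of_sc_abelian hS (isMulCommutative_of_le hDc k1) k2
      (zpowers x) (zpowers_le.2 (hDS hx)) g (mem_top g) (by rwa [cj_zpowers, zpowers_le]))
    rw [← e x (mem_zpowers x)] at hg ⊢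
    exact hloc _ hN (sc_le_normalizer k2) x hx n hn hg
  have hKn := normalizer_eq_top_iff.1 hN
  by_contra hcon
  have hDK : ¬ D ≤ K := fun e => hcon (le_antisymm e k1 ▸ k2)
  let f := QuotientGroup.mk' K
  have hs : Function.Surjective f := QuotientGroup.mk'_surjective K
  have hSc : (S.map f).comap f = S := by
    rw [CF.Solv.comap_map_mk']; exact sup_eq_left.2 (k1.trans hDS)
  have hDc : (D.map f).comap f = D := by rw [CF.Solv.comap_map_mk']; exact sup_eq_left.2 k1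
  have hZS : (𝐙 (S.map f)).comap f ≤ S := (comap_mono (centerThompson_le 0 _)).trans hSc.le
  obtain ⟨y, hy, y1⟩ := (D.map f ⊓ 𝐂(S.map f)).bot_or_exists_ne_one.resolve_left
    (inf_cent_ne_bot ((hS.isPGroup.to_le hDS).map f) (hS.isPGroup.map f)
      ((map_mono hSD).trans (le_normalizer_map f))
      (mt (CF.Solv.map_mk'_eq_bot_iff _ _).1 hDK))
  obtain ⟨⟨x, hx, rfl⟩, y2⟩ := mem_inf.1 hy
  have y3 := mem_centerThompson_of_center (mem_map_of_mem f (hDS hx)) y2 (pow_zero _)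
  have hE : IsStronglyClosed (D ⊓ (𝐙 (S.map f)).comap f) S := by
    by_cases hn : (𝐙 (S.map f)).Normal
    · exact sc_of_normal (hdq _ inferInstance (hS.isPGroup.to_le hZS)) (inf_le_left.trans hDS)
    have a1 := hloc ((𝐍(𝐙 (S.map f))).comap f) (fun e => hn (normalizer_eq_top_iff.1 (by
      rw [← map_comap_eq_self_of_surjective hs 𝐍(𝐙 (S.map f)), e, map_top_of_surjective f hs])))
      (map_le_iff_le_comap.1 (le_normalizer.trans (norm_le_Z _)))
    have a2 := hquot K k0 k1 hn (D.map f ⊓ 𝐙 (S.map f)) inf_le_right inf_le_left fun n hn =>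
      CF.PLocal.mem_normalizer_of_conj_mem fun z hz => by
        obtain ⟨n, rfl⟩ := hs n
        obtain ⟨⟨z, hz1, rfl⟩, hz2⟩ := mem_inf.1 hz
        have a3 := conj_mem_of_mem_normalizer (normalizer_thompson_le 0 _ hn) hz2
        refine mem_inf.2 ⟨?_, a3⟩
        rw [← map_inv, ← map_mul, ← map_mul] at a3 ⊢
        exact mem_map_of_mem f (a1 z hz1 n (normalizer_thompson_le 0 _ hn) (hZS a3))
    refine ⟨inf_le_left.trans hDS, fun z hz g hg => ?_⟩
    have a3 := a2.2 (f z) ⟨mem_map_of_mem f hz.1, hz.2⟩ (f g) (by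
      rw [← map_inv, ← map_mul, ← map_mul]; exact mem_map_of_mem f hg)
    rw [← map_inv, ← map_mul, ← map_mul] at a3
    exact ⟨hDc.le a3.1, a3.2⟩
  refine (CF.PLocal.card_lt_of_lt (lt_of_le_not_ge (le_inf k1 fun z hz => ?_) fun e => y1 ?_)).not_ge
    (hmax _ ⟨inf_le_left, hE⟩)
  · rw [mem_comap, show f z = 1 from (QuotientGroup.eq_one_iff z).2 hz]; exact one_mem _
  · exact (QuotientGroup.eq_one_iff x).2 (e ⟨hx, y3⟩)

end CF.ZF
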