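/-
Glauberman: if `ZJ(S)` does not control strong fusion, `F(p)` is involved in `N(ZJ(S))` and some
element of order `p` of `ZJ(S)` is conjugate to all its nontrivial powers.
-/
import Cfsg.Agent.PLocal.ZFc

set_option autoImplicit false

namespace CF.ZF

open Subgroup Cfsg CF.Transfer CF.PLocal
open scoped commutatorElement Matrix MatrixGroups

local notation "𝐉" => thompsonSubgroupOf 0
local notation "𝐙" => centerThompsonOf 0
local notation "𝐍(" X ")" => normalizer (SetLike.coe X)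
local notation "𝐂(" X ")" => centralizer (SetLike.coe X)

universe u

variable {G : Type*} [Group G] {p : ℕ}

/-- The elements whose `N`-conjugates lie in `D`. -/
def core (D N : Subgroup G) : Subgroup G where
  carrier := {y | ∀ n ∈ N, n * y * n⁻¹ ∈ D}
  one_mem' n _ := by simp [D.one_mem]
  mul_mem' {a b} ha hb n hn := by
    have := mul_mem (ha n hn) (hb n hn)
    simpa [mul_assoc] using this
  inv_mem' {a} ha n hn := by
    have := inv_mem (ha n hn)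
    simpa [mul_assoc] using this

theorem core_le (D N : Subgroup G) : core D N ≤ D := fun y hy => by simpa using hy 1 (one_mem N)

variable [Finite G]

theorem le_normalizer_core (D N : Subgroup G) : N ≤ 𝐍(core D N) := fun m hm =>
  CF.PLocal.mem_normalizer_of_conj_mem fun y hy n hn => by
    have := hy (n * m) (mul_mem hn hm)
    simpa [mul_assoc] using this

variable [hp : Fact p.Prime]

/-- The case of no nontrivial strongly closed subgroup in `D`. -/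
theorem gamma (hp2 : p ≠ 2) {S D : Subgroup G} (hS : IsSylowIn p S ⊤) (hD : D ≤ 𝐙 S)
    (hDn : 𝐍(𝐉 S) ≤ 𝐍(D)) {l : ℕ} (hl : ¬ p ∣ l) (hE : ¬ Eig l D)
    (hL : ∀ M ≠ ⊤, ∀ T, IsSylowIn p T M → ∀ E ≤ 𝐙 T, E ≤ D → M ⊓ 𝐍(𝐉 T) ≤ 𝐍(E) → SCin E T M)
    (h0 : ∀ B : Subgroup G, B.Normal → IsPGroup p B → D ⊓ B = ⊥) : IsStronglyClosed D S := by
  have hDS : D ≤ S := hD.trans (centerThompson_le 0 S)
  have hSD : 𝐍(S) ≤ 𝐍(D) := (normalizer_le_normalizer_thompson 0 S).trans hDn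
  have hDc := isMulCommutative_of_le (centerThompson_isMulCommutative 0 S) hD
  by_cases hD0 : D = ⊥
  · subst hD0; exact sc_of_normal inferInstance bot_le
  have hne : ∀ U : Subgroup G, IsPGroup p U → ∀ x ∈ D, x ≠ 1 → x ∈ U → 𝐍(U) ≠ ⊤ :=
    fun U hU x h1 h2 h3 e => h2 (mem_bot.1 ((h0 U (normalizer_eq_top_iff.1 e) hU).le ⟨h1, h3⟩))
  have step : ∀ L ≠ ⊤, ∀ T, IsSylowIn p T L → ∀ x ∈ 𝐙 T, (∀ n ∈ 𝐍(𝐉 T), n * x * n⁻¹ ∈ D) →
      ∀ m ∈ L, m * x * m⁻¹ ∈ T → m * x * m⁻¹ ∈ D := fun L h1 T hT x hx h2 m hm h3 =>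
    core_le _ _ (hL L h1 T hT (𝐙 T ⊓ core D 𝐍(𝐉 T)) inf_le_left (inf_le_right.trans (core_le _ _))
      (inf_le_right.trans (le_normalizer_inf (normalizer_thompson_le 0 T) (le_normalizer_core _ _)))
      x ⟨hx, h2⟩ m hm h3).2
  have hiff : ∀ {V : Subgroup G} {n x : G}, n ∈ 𝐍(V) → x ∈ V → n * x * n⁻¹ ∈ V :=
    conj_mem_of_mem_normalizer
  suffices ∀ A ≤ S, ∀ g ∈ (⊤ : Subgroup G), cj g A ≤ S → ∀ x ∈ A, x ∈ D ↔ g * x * g⁻¹ ∈ D from
    ⟨hDS, fun x hx g hg => (this (zpowers x) (zpowers_le.2 (hDS hx)) g (mem_top g)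
      (by rwa [cj_zpowers, zpowers_le]) x (mem_zpowers x)).1 hx⟩
  refine alperin_induction hS (fun A g => ∀ x ∈ A, x ∈ D ↔ g * x * g⁻¹ ∈ D)
    (fun A B g h1 h2 x hx => h2 x (h1 hx))
    (fun A g h h1 h2 x hx => (h1 x hx).trans ((h2 _ (conj_mem_cj hx)).trans (by
      simp only [mul_assoc, mul_inv_rev])))
    (fun A g h1 x hx => by
      have := h1 _ (mem_cj.1 hx)
      simpa [mul_assoc] using this.symm) fun U hU ih => ?_
  suffices 𝐍(U) ≤ 𝐍(D ⊓ U) from fun n hn x hx =>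
    ⟨fun h => (hiff (this hn.2) ⟨h, hx⟩).1, fun h => by
      have := (hiff (inv_mem (this hn.2)) ⟨h, hiff hn.2 hx⟩).1
      simpa [mul_assoc] using this⟩
  obtain ⟨hUS, hT⟩ := hU
  rw [top_inf_eq] at hT
  have hUp := hS.isPGroup.to_le hUS
  rcases hUS.eq_or_lt with rfl | hlt
  · exact le_normalizer_inf hSD le_rfl
  have hUT := lt_inf_normalizer_of_lt hS.isPGroup hlt
  replace ih : ∀ V ≤ S, Nat.card U < Nat.card V → ∀ g, cj g V ≤ S →
      ∀ x ∈ V, x ∈ D ↔ g * x * g⁻¹ ∈ D := fun V h1 h2 g => ih V h1 h2 g (mem_top g)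
  by_cases hDU : D ≤ U
  swap
  · by_contra hcon
    have hUD : U ≤ 𝐍(D) := (hUS.trans le_normalizer).trans hSD
    have hA : U < D ⊓ 𝐍(U) ⊔ U := right_lt_sup.2 fun e =>
      hDU (le_of_inf_normalizer_le hS.isPGroup hUS hDS hUD e)
    have hAS : D ⊓ 𝐍(U) ⊔ U ≤ S := sup_le (inf_le_left.trans hDS) hUS
    obtain ⟨H, ⟨a1, a2, a3⟩, hmin⟩ := Set.exists_min_image {X : Subgroup G | X ≤ 𝐍(U) ∧
      D ⊓ 𝐍(U) ⊔ U ≤ X ∧ ¬ X ≤ 𝐍(D ⊓ U)} (fun X => Nat.card X) (Set.toFinite _)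
      ⟨_, le_rfl, sup_le inf_le_right le_normalizer, hcon⟩
    obtain ⟨c, c1, c2⟩ := lemF' hp2 (H := H) (Q := U) (D := D ⊓ U) (A := D ⊓ 𝐍(U))
      (le_sup_right.trans a2) a1 (le_sup_left.trans a2) hUp inf_le_right
      (hS.isPGroup.to_le (inf_le_left.trans hDS))
      (commutator_eq_bot_iff_le_centralizer.2 (((commutator_mono le_rfl inf_le_left).trans
        (le_normalizer_iff_commutator_le_right.1 hUD)).trans
        ((le_centralizer_iff_isMulCommutative.2 hDc).trans (centralizer_anti inf_le_left))))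
      (inf_le_left.trans ((le_centralizer_iff_isMulCommutative.2 hDc).trans
        (centralizer_anti inf_le_left))) (isMulCommutative_of_le hDc inf_le_left)
      (le_normalizer_inf hUD le_normalizer)
      (fun X b1 b2 b3 => by_contra fun e => (CF.PLocal.card_lt_of_lt b3).not_ge
        (hmin X ⟨b3.le.trans a1, sup_le b1 b2, e⟩))
      (fun K b1 b2 b3 b4 b5 => a3 fun x hx => by
        obtain ⟨V, v1, hV⟩ := exists_isSylowIn_ge (hS.isPGroup.to_le hAS) (sup_le b1 b2)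
        obtain ⟨k, hk, y, hy, rfl⟩ := hV.frattini (b4 hx)
        refine mul_mem (b5 hk) ?_
        have y1 : y ∈ 𝐍(U) := by simpa using mul_mem (inv_mem (a1 (b3 hk))) (a1 hx)
        obtain ⟨n, hn, n1⟩ := hT.exists_cj_le hV.isPGroup (hV.le.trans (b3.trans a1))
        replace n1 := n1.trans inf_le_left
        have r1 := ih _ hAS (CF.PLocal.card_lt_of_lt hA) n ((cj_mono n v1).trans n1)
        have r2 := ih _ n1 (by rw [card_cj]; exact CF.PLocal.card_lt_of_lt (hA.trans_le v1))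
          (n * y * n⁻¹) (by rwa [cj_cj, inv_mul_cancel_right, cj_mul, cj_eq_of_mem_normalizer hy])
        refine CF.PLocal.mem_normalizer_of_conj_mem fun z hz => ⟨?_, hiff y1 hz.2⟩
        refine (r1 _ (mem_sup_right (hiff y1 hz.2))).2 ?_
        have := (r2 _ (conj_mem_cj (v1 (mem_sup_right hz.2)))).1
          ((r1 z (mem_sup_right hz.2)).1 hz.1)
        simpa [mul_assoc] using this) hl
    exact hE ⟨c, c1.1, c2⟩
  rw [inf_eq_left.2 hDU]
  have good : ∀ g, S ⊓ 𝐍(U) ≤ cj g S → g ∈ 𝐍(D) := fun g hg => inv_mem_iff.1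
    (CF.PLocal.mem_normalizer_of_conj_mem fun x hx => (ih _ inf_le_left
      (CF.PLocal.card_lt_of_lt hUT) g⁻¹ (le_cj_iff.1 hg) x (hUT.le (hDU hx))).1 hx)
  have good' : ∀ g ∈ 𝐍(D), 𝐍(𝐉 (cj g S)) ≤ 𝐍(D) := fun g hg => by
    rw [cj_J, normalizer_cj, ← cj_eq_of_mem_normalizer hg, normalizer_cj]
    exact cj_mono g hDn
  have Y : ∀ T : Subgroup G, IsPGroup p T → S ⊓ 𝐍(U) ≤ T → ∃ g, T ≤ cj g S ∧ ∃ x ∈ D, x ≠ 1 ∧
      x ∈ 𝐂(cj g S) ∧ ∀ n ∈ 𝐍(𝐉 T), n * x * n⁻¹ ∈ D := by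
    intro T
    induction T using WellFoundedGT.induction with
    | ind T ih' => ?_
    intro h1 h2
    obtain ⟨g, hg⟩ := exists_le_cj hS h1
    rcases hg.eq_or_lt with rfl | hlt'
    · have h3 := good' g (good g h2)
      obtain ⟨x, hx, x1⟩ := (D ⊓ 𝐂(cj g S)).bot_or_exists_ne_one.resolve_left
        (inf_cent_ne_bot (hS.isPGroup.to_le hDS) h1
          (le_normalizer.trans ((normalizer_le_normalizer_thompson 0 _).trans h3)) hD0)
      exact ⟨g, le_rfl, x, hx.1, x1, hx.2, fun n hn => hiff (h3 hn) hx.1⟩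
    obtain ⟨T₁, hT₁, a1, a2⟩ := exists_grow (sylow_cj hS g).isPGroup hlt'
      (normalizer_le_normalizer_thompson 0 T)
    have a3 := a2.trans_le a1
    obtain ⟨k, hk, x, x1, x2, x3, x4⟩ := ih' _ a3 hT₁.isPGroup (h2.trans a3.le)
    have x5 : x ∈ T := h2 (hUT.le (hDU x1))
    have x6 := centerThompson_le_thompson 0 T (mem_centerThompson_of_center x5
      (centralizer_anti (a3.le.trans hk) x3) (pow_zero x))
    exact ⟨k, a3.le.trans hk, x, x1, x2, x3, fun n hn => step _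
      (hne _ (h1.to_le (thompson_le 0 T)) x x1 x2 x6) T₁ hT₁ x
      (mem_centerThompson_of_center (a3.le x5) (centralizer_anti hk x3) (pow_zero x)) x4 n hn
      (a3.le (thompson_le 0 T (hiff hn x6)))⟩
  obtain ⟨g, hg, x, x1, x2, x3, x4⟩ := Y _ hT.isPGroup le_rfl
  have g1 := good g hg
  have g2 : D ≤ 𝐙 (cj g S) := by
    rw [cj_Z, ← cj_eq_of_mem_normalizer g1]; exact cj_mono g hD
  have g3 := g2.trans (centerThompson_le_centralizer 0 _)
  intro n hn
  have y1 := step _ (hne U hUp x x1 x2 (hDU x1)) _ hT x (mem_centerThompson_of_center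
    (hUT.le (hDU x1)) (centralizer_anti hg x3) (pow_zero x)) x4 n⁻¹ (inv_mem hn)
    (hUT.le (hiff (inv_mem hn) (hDU x1)))
  obtain ⟨m, hm, e⟩ := burn (sylow_cj hS g) (g3 x1) (g3 y1) (n := n) (by group)
  have c1 : n * m⁻¹ ∈ centralizer {x} := by
    rw [mem_centralizer_singleton_iff]
    calc _ = n * m⁻¹ * (m * (n⁻¹ * x * n⁻¹⁻¹) * m⁻¹) := by rw [e]
      _ = _ := by group
  have c2 : cj g S ≤ centralizer {x} := fun y hy => mem_centralizer_singleton_iff.2 (x3 y hy)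
  refine CF.PLocal.mem_normalizer_of_conj_mem fun d hd => ?_
  have c3 := hL (centralizer {x}) (fun e => hne (zpowers x)
    (hS.isPGroup.to_le (zpowers_le.2 (hDS x1))) x x1 x2 (mem_zpowers x) (top_le_iff.1 fun y _ =>
      centralizer_le_normalizer _ (mem_centralizer_zpowers.2
        (mem_centralizer_singleton_iff.1 (e.ge (mem_top y))).symm)))
    (cj g S) ((sylow_cj hS g).of_le c2 le_top) D g2 le_rfl (inf_le_right.trans (good' g g1))
    _ (hiff (good' g g1 hm) hd) _ c1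
  have e' : n * m⁻¹ * (m * d * m⁻¹) * (n * m⁻¹)⁻¹ = n * d * n⁻¹ := by group
  rw [e'] at c3
  exact c3 (hg (hUT.le (hiff hn (hDU hd))))

omit hp in
theorem scin_of_sub {M T E : Subgroup G} (hT : T ≤ M) (hE : E ≤ 𝐙 T) (hn : M ⊓ 𝐍(𝐉 T) ≤ 𝐍(E))
    (h : E.subgroupOf M ≤ 𝐙 (T.subgroupOf M) → 𝐍(𝐉 (T.subgroupOf M)) ≤ 𝐍(E.subgroupOf M) →
      IsStronglyClosed (E.subgroupOf M) (T.subgroupOf M)) : SCin E T M := by
  have hET := hE.trans (centerThompson_le 0 T)
  intro x hx m hm h1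
  refine (h ?_ ?_).2 ⟨x, hT (hET hx)⟩ hx ⟨m, hm⟩ h1
  · rw [← map_subtype_le_map_subtype, map_subgroupOf_eq_of_le (hET.trans hT),
      ← centerThompson_map M.subtype_injective.injOn, map_subgroupOf_eq_of_le hT]
    exact hE
  · rw [thompson_subgroupOf hT, ← subgroupOf_normalizer_eq ((thompson_le 0 T).trans hT),
      ← subgroupOf_normalizer_eq (hET.trans hT)]
    exact fun y hy => hn ⟨y.2, hy⟩

theorem sc_of_not_eig (hp2 : p ≠ 2) {l : ℕ} (hl : ¬ p ∣ l) (n : ℕ) :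
    ∀ (G : Type u) [Group G] [Finite G], Nat.card G = n → ∀ S D : Subgroup G, IsSylowIn p S ⊤ →
      D ≤ 𝐙 S → 𝐍(𝐉 S) ≤ 𝐍(D) → ¬ Eig l D → IsStronglyClosed D S := by
  induction n using Nat.strong_induction_on with
  | _ n ih => ?_
  intro G _ _ hn S D hS hD hDn hE
  subst hn
  have hL : ∀ M ≠ ⊤, ∀ T, IsSylowIn p T M → ∀ E ≤ 𝐙 T, (∃ g, E ≤ cj g D) → M ⊓ 𝐍(𝐉 T) ≤ 𝐍(E) →
      SCin E T M := by
    rintro M h1 T hT E h2 ⟨g, h3⟩ h4
    refine scin_of_sub hT.le h2 h4 fun h5 h6 => ih _ (CF.Solv.card_lt_of_ne_top h1) M rfl _ _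
      hT.subgroupOf_top h5 h6 ?_
    rintro ⟨c, c1, c2, h, c3⟩
    refine hE ⟨g⁻¹ * c * g, mem_cj.1 (h3 c1), fun e => c2 (Subtype.ext ?_), g⁻¹ * h * g, ?_⟩
    · exact conj_eq_one_iff.1 (show g⁻¹ * c * g⁻¹⁻¹ = 1 by rwa [inv_inv])
    · have := congrArg Subtype.val c3
      simp only [coe_mul, coe_inv, SubgroupClass.coe_pow] at this
      have e := conj_pow (a := g⁻¹) (b := (c : G)) (i := l)
      rw [inv_inv] at e
      rw [e, ← this]; group
  have hdq := dq hp2 hS hD hDn (fun M h1 T hT _ => hL M h1 T hT) fun _ _ _ h _ => hE (h l hl)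
  have hDS : D ≤ S := hD.trans (centerThompson_le 0 S)
  by_cases h0 : ∀ B : Subgroup G, B.Normal → IsPGroup p B → D ⊓ B = ⊥
  · exact gamma hp2 hS hD hDn hl hE (fun M h1 T hT E h2 h3 => hL M h1 T hT E h2 ⟨1, by rwa [cj_one]⟩) h0
  push Not at h0
  obtain ⟨B, h1, h2, h3⟩ := h0
  refine beta hS hD hDn (fun M a1 a2 => hL M a1 S (hS.of_le a2 le_top) D hD ⟨1, (cj_one D).ge⟩
    (inf_le_right.trans hDn)) hdq (fun K _ k0 k1 _ E e1 e2 e3 => ?_) inf_le_left h3
    (sc_of_normal (hdq B h1 h2) (inf_le_left.trans hDS))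
  refine ih _ (CF.Solv.card_quotient_lt k0) _ rfl _ _ (isSylowIn_map_mk' hS K) e1 e3 ?_
  rintro ⟨c, c1, c2, h, c3⟩
  obtain ⟨c, c4, rfl⟩ := e2 c1
  obtain ⟨h, rfl⟩ := QuotientGroup.mk'_surjective K h
  obtain ⟨d, d1, d2, d3⟩ := ev (l := l) (h := h)
    (isMulCommutative_of_le (centerThompson_isMulCommutative 0 S) hD) k1
    (le_normalizer_of_normal (mem_top h)) c4 (fun e => c2 ((QuotientGroup.eq_one_iff c).2 e))
    ((QuotientGroup.eq_one_iff _).1 (by
      change QuotientGroup.mk' K _ = 1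
      rw [map_mul, map_mul, map_mul, map_inv, map_inv, map_pow, c3, mul_inv_cancel]))
  exact hE ⟨d, d1, d2, h, d3⟩

/-! ### The group `F(p)` -/

theorem loc_aux {F C : Type*} [Group F] [Finite F] [Group C] (χ : F →* C) (h1 : IsPGroup p χ.ker)
    (h2 : ∀ y k, orderOf y = p ^ k → χ y = 1) (h3 : 𝐂(χ.ker) ≤ χ.ker) (h4 : χ.ker ≠ ⊥) {t : F}
    (h5 : ∀ m, χ m ∈ zpowers (χ t)) (h : Involves F G) :
    ∃ P : Subgroup G, IsPGroup p P ∧ P ≠ ⊥ ∧ ∃ x ∈ 𝐍(P), ∀ y : G,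
      (∀ u ∈ P, y * u * y⁻¹ = x * u * x⁻¹) → ∀ H, P ≤ H → y ∈ H → Involves F H := by
  obtain ⟨K, f, hf⟩ := involves_iff.1 h
  obtain ⟨P, hP⟩ := exists_isSylowIn p (χ.ker.comap f)
  have hPf : χ.ker ≤ P.map f := by
    have := hP.map f
    rw [map_comap_eq_self_of_surjective hf] at this
    exact (this.eq_of_le h1 this.le le_rfl).le
  obtain ⟨x₀, rfl⟩ := hf t
  obtain ⟨x, hx, n, hn, rfl⟩ := hP.frattini' (h := x₀) (le_normalizer_of_normal (mem_top _))
  rw [map_mul, map_mul, show χ (f n) = 1 from hn, mul_one] at h5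
  refine ⟨P.map K.subtype, hP.isPGroup.map _, fun e => h4 (le_bot_iff.1 (hPf.trans ?_)), x,
    le_normalizer_map _ (mem_map_of_mem _ hx), fun y hy H hPH hyH => ?_⟩
  · rw [(map_eq_bot_iff_of_injective _ K.subtype_injective).1 e, Subgroup.map_bot]
  let Δ : Subgroup (G × F) := P.map (K.subtype.prod f)
  have hw : ((y, f x) : G × F) ∈ 𝐍(Δ) := CF.PLocal.mem_normalizer_of_conj_mem (by
    rintro _ ⟨u, hu, rfl⟩
    exact ⟨x * u * x⁻¹, conj_mem_of_mem_normalizer hx hu,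
      Prod.ext (hy u (mem_map_of_mem _ hu)).symm (by simp)⟩)
  obtain ⟨a, ha, w, hw', ⟨k, hk⟩, w1, e, -⟩ :=
    exists_pPart_pPrimePart (p := p) (isOfFinOrder_of_finite ((y, f x) : G × F))
  have w2 : w ∈ 𝐍(Δ) := zpowers_le.2 hw hw'
  have w3 : χ w.2 = χ (f x) := by
    obtain ⟨j, hj⟩ := (Nat.dvd_prime_pow hp.out).1 (hk ▸ orderOf_map_dvd (MonoidHom.snd G F) a)
    rw [show f x = a.2 * w.2 from congrArg Prod.snd e, map_mul, h2 a.2 j hj.2, one_mul]
  have hle : Δ ⊔ zpowers w ≤ H.comap (MonoidHom.fst G F) := by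
    refine sup_le ?_ (zpowers_le.2 ((zpowers_le (H := H.comap (MonoidHom.fst G F))).2 hyH hw'))
    rintro _ ⟨u, hu, rfl⟩
    exact hPH (mem_map_of_mem _ hu)
  refine involves_of_ker_le (((MonoidHom.fst G F).comp (Δ ⊔ zpowers w).subtype).codRestrict H
    fun s => hle s.2) ((MonoidHom.snd G F).comp (Δ ⊔ zpowers w).subtype) (fun m => ?_) ?_
  · obtain ⟨j, hj⟩ := h5 m
    obtain ⟨u, hu, e⟩ := hPf (show m * (w.2 ^ j)⁻¹ ∈ χ.ker by
      rw [MonoidHom.mem_ker, map_mul, map_inv, map_zpow, w3, ← hj, mul_inv_cancel])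
    refine ⟨⟨_, mul_mem (mem_sup_left (mem_map_of_mem _ hu))
      (mem_sup_right (zpow_mem (mem_zpowers w) j))⟩, ?_⟩
    change f u * w.2 ^ j = m
    rw [e, inv_mul_cancel_right]
  · rintro ⟨s, hs⟩ s1
    obtain ⟨_, ⟨u, hu, rfl⟩, z, hz, rfl⟩ :=
      (CF.PLocal.mem_sup_of_le_normalizer' (zpowers_le.2 w2)).1 hs
    have s2 : (u : G) * z.1 = 1 := congrArg Subtype.val s1
    have z1 : (orderOf z).Coprime p := w1.coprime_dvd_left (orderOf_dvd_of_mem_zpowers hz)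
    have u1 : u = 1 := eq_one_of_mem_pGroup_of_coprime hP.isPGroup hu (by
      rw [← Subgroup.orderOf_coe, eq_inv_of_mul_eq_one_left s2, orderOf_inv]
      exact z1.coprime_dvd_left (orderOf_map_dvd (MonoidHom.fst G F) z))
    subst u1
    change f 1 * z.2 = 1
    rw [map_one, one_mul]
    refine eq_one_of_mem_pGroup_of_coprime h1 (h3 fun v hv => ?_)
      (z1.coprime_dvd_left (orderOf_map_dvd (MonoidHom.snd G F) z))
    obtain ⟨v, hv', rfl⟩ := hPf hv
    obtain ⟨v', -, e⟩ := conj_mem_of_mem_normalizer (zpowers_le.2 w2 hz) (mem_map_of_mem _ hv')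
    have e1 : (v' : G) = z.1 * v * z.1⁻¹ := congrArg Prod.fst e
    have e2 : f v' = z.2 * f v * z.2⁻¹ := congrArg Prod.snd e
    rw [show z.1 = 1 by simpa using s2, one_mul, inv_one, mul_one] at e1
    rw [Subtype.ext e1] at e2
    exact eq_mul_inv_iff_mul_eq.1 e2

theorem locF (h : Involves (fOver (ZMod p)) G) :
    ∃ P : Subgroup G, IsPGroup p P ∧ P ≠ ⊥ ∧ ∃ x ∈ 𝐍(P), ∀ y : G,
      (∀ u ∈ P, y * u * y⁻¹ = x * u * x⁻¹) → ∀ H, P ≤ H → y ∈ H → Involves (fOver (ZMod p)) H := by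
  let χ₀ : fOver (ZMod p) →* ZMod p :=
    { toFun := fun M => M.1 0 0
      map_one' := rfl
      map_mul' := fun M N => by
        obtain ⟨a, b⟩ := mem_fOver.1 N.2
        simp [Matrix.mul_apply, Fin.sum_univ_three, a, (mem_qdOver.1 b).1] }
  let χ := χ₀.toHomUnits
  have hk : ∀ M, χ M = 1 ↔ M.1 0 0 = 1 := fun M => Units.ext_iff
  let ι := inclusion (fOver_le (F := ZMod p))
  let z : fOver (ZMod p) := ⟨(qdMk 1 ![1, 0]).1, mem_fOver.2 ⟨rfl, (qdMk 1 ![1, 0]).2⟩⟩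
  obtain ⟨⟨_, t, rfl⟩, ht⟩ := IsCyclic.exists_generator (α := χ.range)
  refine loc_aux χ ?_ (fun y k hy => ?_) (fun M hM => ?_) (fun e => ?_) (t := t) (fun m => ?_) h
  · refine ((isSylowIn_qdSyl p).isPGroup.comap_of_injective ι (inclusion_injective _)).to_le
      fun M hM => ⟨M.1 0 1, ?_⟩
    have a1 := (hk M).1 hM
    have a2 := (mem_fOver.1 M.2).1
    have a3 : M.1 0 0 * M.1 1 1 - M.1 0 1 * M.1 1 0 = 1 := qd_det (ι M)
    rw [a1, a2, one_mul, mul_zero, sub_zero] at a3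
    ext i j
    fin_cases i <;> fin_cases j
    exacts [a1.symm, rfl, a2.symm, a3.symm]
  · rw [Units.ext_iff, ← ZMod.pow_card_pow (n := k) (x := (χ y : ZMod p)), ← hy,
      ← Units.val_pow_eq_pow_val, ← map_pow, pow_orderOf_eq_one, map_one]
  · have a1 : ι M * qdMk 1 ![1, 0] * (ι M)⁻¹ = qdMk 1 ![1, 0] :=
      mul_inv_eq_iff_eq_mul.2 (congrArg ι (hM z ((hk z).2 rfl))).symm
    rw [qd_conj] at a1
    have a2 := congrFun (congrArg qdCol a1) 0
    simp [qdBlk_val, Matrix.mulVec, dotProduct] at a2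
    exact (hk M).2 a2
  · have a1 : z = 1 := mem_bot.1 (e.le ((hk z).2 rfl))
    exact one_ne_zero (congrArg (fun M : fOver (ZMod p) => M.1 0 2) a1)
  · obtain ⟨j, hj⟩ := ht ⟨_, m, rfl⟩
    exact ⟨j, congrArg Subtype.val hj⟩

theorem sc_of_free (hp2 : p ≠ 2) (h : ¬ Involves (fOver (ZMod p)) G) {S E : Subgroup G}
    (hS : IsSylowIn p S ⊤) (hE : E ≤ 𝐙 S) (hn : 𝐍(𝐉 S) ≤ 𝐍(E)) : IsStronglyClosed E S := by
  have h1 := (controlsStrongFusion_iff hS.toSylowTop (centerThompson_le 0 _)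
    (le_normalizer.trans (norm_le_Z _))).1 (zj_controlsStrongFusion hp2 (Or.inl rfl) (fun e =>
      h (involves_trans (involves_of_injective _ (inclusion_injective fOver_le)) e)) hS.toSylowTop)
  rw [IsSylowIn.coe_toSylowTop] at h1
  have hES := hE.trans (centerThompson_le 0 S)
  refine ⟨hES, fun x hx g hg => ?_⟩
  obtain ⟨n, a1, a2⟩ := mulRel_iff.1 (h1 (zpowers x) (zpowers_le.2 (hES hx)) g
    (by rwa [cj_zpowers, zpowers_le]))
  obtain ⟨m, hm, e⟩ := burn hS (centerThompson_le_centralizer 0 S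
    (conj_mem_of_mem_normalizer a1 (hE hx))) (centerThompson_le_centralizer 0 S (hE hx)) rfl
  rw [← a2 x (mem_zpowers x), ← e]
  exact conj_mem_of_mem_normalizer (hn hm) hx

theorem involves_normalizer (hp2 : p ≠ 2) (n : ℕ) :
    ∀ (G : Type u) [Group G] [Finite G], Nat.card G = n → ∀ S : Subgroup G, IsSylowIn p S ⊤ →
      Involves (fOver (ZMod p)) G → Involves (fOver (ZMod p)) 𝐍(𝐙 S) := by
  induction n using Nat.strong_induction_on with
  | _ n ih => ?_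
  intro G _ _ hn S hS hG
  subst hn
  by_contra hcon
  have IH : ∀ M ≠ ⊤, ∀ T : Subgroup G, IsSylowIn p T M → Involves (fOver (ZMod p)) M →
      Involves (fOver (ZMod p)) 𝐍(𝐙 T) := fun M h1 T hT h2 => by
    refine involves_mono (involves_map_subtype
      (ih _ (CF.Solv.card_lt_of_ne_top h1) M rfl _ hT.subgroupOf_top h2))
      ((le_normalizer_map _).trans (le_of_eq ?_))
    rw [← centerThompson_map M.subtype_injective.injOn, map_subgroupOf_eq_of_le hT.le]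
  have push : ∀ T : Subgroup G, IsPGroup p T →
      (∀ T' : Subgroup G, IsPGroup p T' → T ≤ T' → ¬ (𝐙 T').Normal) →
        ¬ Involves (fOver (ZMod p)) 𝐍(𝐙 T) := by
    intro T
    induction T using WellFoundedGT.induction with
    | ind T ih' => ?_
    intro h1 h2 h3
    obtain ⟨g, hg⟩ := exists_le_cj hS h1
    rcases hg.eq_or_lt with rfl | hlt
    · have := involves_cj h3 g⁻¹
      rw [cj_Z, normalizer_cj, cj_inv_cj] at this
      exact hcon this
    obtain ⟨T₁, hT₁, a1, a2⟩ := exists_grow (sylow_cj hS g).isPGroup hlt (norm_le_Z T)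
    exact ih' _ (a2.trans_le a1) hT₁.isPGroup (fun T' b1 b2 => h2 T' b1 ((a2.le.trans a1).trans b2))
      (IH _ (mt normalizer_eq_top_iff.1 (h2 T h1 le_rfl)) T₁ hT₁ h3)
  have hS' : ∀ M ≠ ⊤, S ≤ M → ¬ Involves (fOver (ZMod p)) M := fun M h1 h2 h3 =>
    hcon (IH M h1 S (hS.of_le h2 le_top) h3)
  have hsc : ∀ M T E : Subgroup G, ¬ Involves (fOver (ZMod p)) M → IsSylowIn p T M → E ≤ 𝐙 T →
      M ⊓ 𝐍(𝐉 T) ≤ 𝐍(E) → SCin E T M := fun M T E h1 hT h2 h3 =>
    scin_of_sub hT.le h2 h3 (sc_of_free hp2 h1 hT.subgroupOf_top)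
  obtain ⟨P, p1, p2, x, hx, p3⟩ := locF hG
  by_cases h0 : ∀ B : Subgroup G, B.Normal → IsPGroup p B → B = ⊥
  · obtain ⟨T, a1, hT⟩ := exists_isSylowIn_ge p1 le_normalizer
    refine push T hT.isPGroup (fun T' b1 b2 b3 => ?_) (IH _ (fun e => p2
      (h0 P (normalizer_eq_top_iff.1 e) p1)) T hT (p3 x (fun _ _ => rfl) _ le_normalizer hx))
    exact (centerThompsonF p 0 (dvd_zero p)).ne_bot T' b1
      (fun e => p2 (le_bot_iff.1 ((a1.trans b2).trans e.le)))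
      (h0 _ b3 (b1.to_le (centerThompson_le 0 T')))
  push Not at h0
  obtain ⟨B, h1, h2, h3⟩ := h0
  have hdq := dq hp2 hS le_rfl (normalizer_thompson_le 0 S) (fun M a1 T hT a2 E a3 _ a4 =>
    hsc M T E (fun e => push T hT.isPGroup a2 (IH M a1 T hT e)) hT a3 a4)
    fun N a1 a2 _ => hS' N a1 a2
  have hBS : B ≤ S := hS.le_of_normalized h2 le_top le_normalizer_of_normal
  have hZ := beta hS le_rfl (normalizer_thompson_le 0 S) (fun M a1 a2 => hsc M S _ (hS' M a1 a2)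
    (hS.of_le a2 le_top) le_rfl (inf_le_right.trans (normalizer_thompson_le 0 S))) hdq
    (fun K _ k0 _ k2 E e1 _ e3 => sc_of_free hp2 (fun e => hS' _ (fun e' => k2
      (normalizer_eq_top_iff.1 (by
        rw [← map_comap_eq_self_of_surjective (QuotientGroup.mk'_surjective K) 𝐍(𝐙 _), e',
          map_top_of_surjective _ (QuotientGroup.mk'_surjective K)])))
      (map_le_iff_le_comap.1 (le_normalizer.trans (norm_le_Z _)))
      (involves_comap (QuotientGroup.mk'_surjective K)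
        (ih _ (CF.Solv.card_quotient_lt k0) _ rfl _ (isSylowIn_map_mk' hS K) e)))
      (isSylowIn_map_mk' hS K) e1 e3) inf_le_left
    (fun e => inf_cent_ne_bot h2 hS.isPGroup le_normalizer_of_normal h3 (eq_bot_iff.2 fun y hy =>
      e.le ⟨mem_centerThompson_of_center (hBS hy.1) hy.2 (pow_zero y), hy.1⟩))
    (sc_of_normal (hdq B h1 h2) (inf_le_left.trans (centerThompson_le 0 S)))
  obtain ⟨g, hg⟩ := exists_le_cj hS p1
  obtain ⟨y, y1, y2⟩ := mulRel_iff.1 (ctrlIn_of_sc_abelian hS (centerThompson_isMulCommutative 0 S)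
    hZ (cj g⁻¹ P) (le_cj_iff.1 hg) (g⁻¹ * x * g) (mem_top _) (by
      rw [cj_cj, mul_inv_cancel_right, cj_mul, cj_eq_of_mem_normalizer hx]; exact le_cj_iff.1 hg))
  have := involves_cj (p3 (g * y * g⁻¹) (fun u hu => by
    have := y2 _ (conj_mem_cj_inv (g := g) hu)
    calc _ = g * (y * (g⁻¹ * u * g) * y⁻¹) * g⁻¹ := by group
      _ = _ := by rw [this]; group) (cj g 𝐍(𝐙 S))
    (hg.trans (cj_mono g (le_normalizer.trans (norm_le_Z S)))) (conj_mem_cj y1)) g⁻¹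
  rw [cj_inv_cj] at this
  exact hcon this

end CF.ZF
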